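import Cfsg.Agent.Lib.CharTheory.FullDefect
import Cfsg.Agent.Lib.CharTheory.Orthogonality
import Cfsg.Agent.Lib.CharTheory.Inflation
import Cfsg.Agent.Lib.CharTheory.Ito
import Cfsg.Agent.Lib.CharDegreesTheory.CoprimeDegrees
import Cfsg.Agent.Lib.ZerosCodegree.CharBasics
import Cfsg.Agent.Lib.ZerosCodegree.RegularPairing
import Mathlib.GroupTheory.Sylow

/-!
Lower bounds for the norm of a character of full defect degree on elements of prime order.
-/

set_option autoImplicit false
set_option linter.style.haveILetI false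
set_option linter.unusedSectionVars false

open scoped ComplexConjugate
open Cfsg CfsgLib.CharTheory

namespace CfsgLib.Jordan

/-- The excess of `q ∑ y² - (∑ y)²` over its least possible value. -/
theorem sq_sum_excess {ι : Type*} (s : Finset ι) (y : ι → ℤ) (q D : ℤ)
    (hq : (s.card : ℤ) = q) (hD : ∑ i ∈ s, y i = D) :
    q * ∑ i ∈ s, y i ^ 2 - D ^ 2 =
      D % q * (q - D % q) + q * ∑ i ∈ s, (y i - D / q) * (y i - D / q - 1) := by
  have h : D % q = D - q * (D / q) := Int.emod_def D q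
  have e : ∑ i ∈ s, (y i - D / q) * (y i - D / q - 1) =
      ∑ i ∈ s, y i ^ 2 - (2 * (D / q) + 1) * D + q * (D / q * (D / q + 1)) := by
    rw [← hD, Finset.mul_sum, ← hq, ← nsmul_eq_mul, ← Finset.sum_const, ← Finset.sum_sub_distrib,
      ← Finset.sum_add_distrib]
    exact Finset.sum_congr rfl fun i _ => by rw [hD]; ring
  rw [e, h]
  ring

theorem sq_sum_excess_nonneg (z : ℤ) : 0 ≤ z * (z - 1) := by
  rcases le_or_gt z 0 with h | h
  · exact mul_nonneg_of_nonpos_of_nonpos h (by omega)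
  · exact mul_nonneg h.le (by omega)

/-- Either the minimum is attained with all entries within one of the average, or it is exceeded
by at least `2q`. -/
theorem sq_sum_dichotomy {ι : Type*} (s : Finset ι) (y : ι → ℤ) (q D : ℤ) (hq0 : 0 < q)
    (hq : (s.card : ℤ) = q) (hD : ∑ i ∈ s, y i = D) :
    D % q * (q - D % q) + 2 * q ≤ q * ∑ i ∈ s, y i ^ 2 - D ^ 2 ∨
      (q * ∑ i ∈ s, y i ^ 2 - D ^ 2 = D % q * (q - D % q) ∧
        ∀ i ∈ s, y i = D / q ∨ y i = D / q + 1) := by
  rw [sq_sum_excess s y q D hq hD]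
  by_cases h : ∀ i ∈ s, y i = D / q ∨ y i = D / q + 1
  · refine Or.inr ⟨?_, h⟩
    rw [Finset.sum_eq_zero, mul_zero, add_zero]
    intro i hi
    rcases h i hi with h | h <;> rw [h] <;> ring
  · refine Or.inl ?_
    push Not at h
    obtain ⟨i, hi, h0, h1⟩ := h
    have h2 : 2 ≤ (y i - D / q) * (y i - D / q - 1) := by
      rcases lt_or_gt_of_ne h0 with hlt | hgt
      · nlinarith
      · have : D / q + 2 ≤ y i := by omega
        nlinarith
    have h3 := Finset.single_le_sum (fun j _ => sq_sum_excess_nonneg (y j - D / q)) hi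
    nlinarith

theorem sq_sum_bound {ι : Type*} (s : Finset ι) (y : ι → ℤ) (q D : ℤ) (hq0 : 0 < q)
    (hq : (s.card : ℤ) = q) (hD : ∑ i ∈ s, y i = D) :
    D % q * (q - D % q) ≤ q * ∑ i ∈ s, y i ^ 2 - D ^ 2 := by
  rcases sq_sum_dichotomy s y q D hq0 hq hD with h | ⟨h, -⟩ <;> omega

variable {G : Type*} [Group G] [Finite G]

/-- The multiplicities on a subgroup of prime order of a character vanishing on `p`-singular
elements are divisible by the order of a centralizing `p`-subgroup. -/
theorem exists_mult_of_fullDegree {p : ℕ} (hp : p.Prime) {χ : G → ℂ} (hχ : IsIrrCharacter G χ)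
    (hvan : ∀ x : G, p ∣ orderOf x → χ x = 0) {d : ℕ} (hd : χ 1 = d)
    (Q : Subgroup G) {q : ℕ} (hq : q.Prime) (hqp : ¬ p ∣ q) (hQ : Nat.card Q = q) [Fintype Q]
    (E : Subgroup G) (hE : IsPGroup p E) (hQE : ∀ a ∈ Q, ∀ e ∈ E, a * e = e * a)
    [Fintype (IrrCharacter Q)] :
    ∃ y : IrrCharacter Q → ℤ, Fintype.card (IrrCharacter Q) = q ∧
      (Nat.card E : ℤ) * ∑ i, y i = d ∧
      (∑ a : Q, Complex.normSq (χ a)) = (((q : ℤ) * (Nat.card E : ℤ) ^ 2 * ∑ i, y i ^ 2 : ℤ) : ℝ) ∧
      ∑ a : Q, χ a = (((q : ℤ) * (Nat.card E : ℤ) * y (trivIrr Q) : ℤ) : ℂ) := by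
  classical
  haveI : Fact q.Prime := ⟨hq⟩
  haveI : Fact p.Prime := ⟨hp⟩
  haveI := Fintype.ofFinite G
  haveI := Fintype.ofFinite E
  have hcomm : ∀ a b : Q, a * b = b * a := fun a b => by
    haveI : IsCyclic Q := isCyclic_of_prime_card hQ
    exact (IsCyclic.commGroup (α := Q)).mul_comm a b
  let f : ↥Q × ↥E →* G := Q.subtype.noncommCoprod E.subtype fun a e => hQE a a.2 e e.2
  have hf : ∀ x, f x = (x.1 : G) * (x.2 : G) := fun x => rfl
  have hχf : IsCharacter (↥Q × ↥E) (fun x => χ (f x)) :=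
    CfsgLib.Coherence.isCharacter_comp (IsIrrCharacter.isCharacter hχ) f
  haveI := Fintype.ofFinite (IrrCharacter (↥Q × ↥E))
  have hfst : ∀ ψ : IrrCharacter Q, ∃ k : ℕ,
      classInner (fun a : Q => χ a) (ψ : Q → ℂ) = ((Nat.card E : ℤ) * k : ℤ) := by
    intro ψ
    obtain ⟨k, hk⟩ := IsCharacter.exists_classInner_eq_nat hχf
      (⟨fun x => (ψ : Q → ℂ) x.1, isIrrCharacter_comp ψ.2 (f := MonoidHom.fst ↥Q ↥E) Prod.fst_surjective⟩ :
        IrrCharacter (↥Q × ↥E))
    refine ⟨k, ?_⟩
    rw [classInner, Fintype.sum_prod_type, Nat.card_prod] at hk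
    have hinner : ∀ a : Q, ∑ e : E, χ (f (a, e)) * conj ((ψ : Q → ℂ) a) = χ a * conj ((ψ : Q → ℂ) a) := by
      intro a
      rw [Finset.sum_eq_single (1 : E)]
      · rw [hf]; simp
      · intro e _ he
        rw [hvan, zero_mul]
        rw [hf, (show Commute (a : G) (e : G) from hQE a a.2 e e.2).orderOf_mul_eq_mul_orderOf_of_coprime]
        · refine Dvd.dvd.mul_left ?_ _
          obtain ⟨j, hj⟩ := IsPGroup.iff_orderOf.mp hE e
          rw [Subgroup.orderOf_coe, hj]
          refine dvd_pow_self p fun h => he (orderOf_eq_one_iff.1 ?_)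
          rw [hj, h, pow_zero]
        · obtain ⟨j, hj⟩ := IsPGroup.iff_orderOf.mp hE e
          simp only [Subgroup.orderOf_coe, hj]
          refine Nat.Coprime.pow_right j ((hp.coprime_iff_not_dvd.2 fun h => hqp (h.trans ?_)).symm)
          exact hQ ▸ orderOf_dvd_natCard a
      · simp
    simp only [hinner] at hk
    have hEne : (Nat.card E : ℂ) ≠ 0 := Nat.cast_ne_zero.2 Nat.card_pos.ne'
    rw [classInner]
    push_cast at hk ⊢
    rw [← hk]
    field_simp
  choose k hk using hfst
  refine ⟨fun i => (k i : ℤ), ?_, ?_, ?_, ?_⟩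
  · haveI : IsMulCommutative Q := ⟨⟨hcomm⟩⟩
    have h1 := card_irrCharacter (G := Q)
    rw [Nat.card_eq_fintype_card] at h1
    rw [h1, ← hQ]
    exact (Nat.card_congr (Equiv.ofBijective _ ⟨fun a b h => by
      obtain ⟨c, hc⟩ := isConj_iff.1 (ConjClasses.mk_eq_mk_iff_isConj.1 h)
      rw [hcomm c a, mul_inv_cancel_right] at hc
      exact hc, ConjClasses.mk_surjective⟩)).symm
  all_goals
    have hQχ : IsCharacter Q (fun a : Q => χ a) :=
      CfsgLib.Coherence.isCharacter_comp (IsIrrCharacter.isCharacter hχ) Q.subtype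
    have hdec : (fun a : Q => χ a) =
        ∑ i, (((Nat.card E : ℤ) * k i : ℤ) : ℂ) • (i : Q → ℂ) := by
      rw [Finset.sum_congr rfl fun i _ => by rw [← hk i]]
      exact eq_sum_classInner (IsCharacter.isClassFunction hQχ)
  · have h1 := congrFun hdec 1
    simp only [OneMemClass.coe_one, hd, Finset.sum_apply, Pi.smul_apply, smul_eq_mul,
      fun i : IrrCharacter Q => apply_one_eq_one_of_comm hcomm i.2, mul_one] at h1
    rw [Finset.mul_sum]
    exact_mod_cast h1.symm
  · have h1 : classInner (fun a : Q => χ a) (fun a : Q => χ a) =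
        ((∑ i, ((Nat.card E : ℤ) * k i) ^ 2 : ℤ) : ℂ) := by
      conv_lhs => arg 2; rw [hdec]
      rw [classInner_sum_right, Int.cast_sum]
      refine Finset.sum_congr rfl fun i _ => ?_
      rw [classInner_smul_right, hk i, map_intCast]
      push_cast
      ring
    have h2 : ((∑ a : Q, Complex.normSq (χ a) : ℝ) : ℂ) =
        (q : ℂ) * ((∑ i, ((Nat.card E : ℤ) * k i) ^ 2 : ℤ) : ℂ) := by
      rw [← h1, classInner, hQ, ← mul_assoc, mul_inv_cancel₀ (Nat.cast_ne_zero.2 hq.ne_zero), one_mul,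
        Complex.ofReal_sum]
      exact Finset.sum_congr rfl fun a _ => (Complex.mul_conj _).symm
    apply Complex.ofReal_injective
    rw [h2]
    simp only [mul_pow, ← Finset.mul_sum]
    push_cast
    ring
  · have h1 := hk (trivIrr Q)
    rw [classInner, hQ, inv_mul_eq_iff_eq_mul₀ (Nat.cast_ne_zero.2 hq.ne_zero)] at h1
    simp only [trivIrr_apply, map_one, mul_one] at h1
    rw [h1]
    push_cast
    ring

/-- Sums of class functions over the elements of a prime order dividing the group order once. -/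
theorem sum_orderOf_eq {R : Type*} [CommRing R] [Fintype G] {q : ℕ} (hq : q.Prime)
    (hqG : q ∣ Nat.card G) (hq2 : ¬ q ^ 2 ∣ Nat.card G) (f : G → R)
    (hf : ∀ x c : G, f (c * x * c⁻¹) = f x) (Q : Subgroup G) (hQ : Nat.card Q = q) [Fintype Q] :
    ∑ x ∈ Finset.univ.filter (fun x : G => orderOf x = q), f x =
      (Nat.card (Sylow q G) : R) * ((∑ a : Q, f a) - f 1) := by
  classical
  haveI : Fact q.Prime := ⟨hq⟩
  have hfac : (Nat.card G).factorization q = 1 := by
    have h1 := hq.factorization_pos_of_dvd Nat.card_pos.ne' hqG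
    have h2 : ¬ 2 ≤ (Nat.card G).factorization q := fun h =>
      hq2 ((pow_dvd_pow q h).trans (Nat.ordProj_dvd _ q))
    omega
  have hcardS : ∀ S : Sylow q G, Nat.card (S : Subgroup G) = q := fun S => by
    rw [S.card_eq_multiplicity, hfac, pow_one]
  let Q0 : Sylow q G := Sylow.ofCard Q (by rw [hQ, hfac, pow_one])
  haveI : ∀ S : Sylow q G, Fintype (S : Subgroup G) := fun S => Fintype.ofFinite _
  haveI := Fintype.ofFinite (Sylow q G)
  have hsyl : ∀ S : Sylow q G,
      ∑ x ∈ (Finset.univ.filter fun x : G => x ∈ (S : Subgroup G) ∧ x ≠ 1), f x =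
        (∑ a : Q, f a) - f 1 := by
    intro S
    obtain ⟨c, hc⟩ := MulAction.exists_smul_eq G Q0 S
    have h1 : ∑ x ∈ (Finset.univ.filter fun x : G => x ∈ (S : Subgroup G)), f x = ∑ a : Q, f a := by
      refine (Finset.sum_bij (fun (a : Q) _ => c * (a : G) * c⁻¹) (fun a _ => ?_) (fun a _ b _ h => ?_)
        (fun x hx => ?_) fun a _ => (hf a c).symm).symm
      · refine Finset.mem_filter.2 ⟨Finset.mem_univ _, ?_⟩
        rw [← hc, Sylow.coe_subgroup_smul]
        exact Subgroup.smul_mem_pointwise_smul (a : G) (MulAut.conj c) Q a.2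
      · exact Subtype.ext (mul_left_cancel (mul_right_cancel h))
      · have hx' := (Finset.mem_filter.1 hx).2
        rw [← hc, Sylow.coe_subgroup_smul] at hx'
        obtain ⟨a, ha, rfl⟩ := hx'
        exact ⟨⟨a, ha⟩, Finset.mem_univ _, rfl⟩
    rw [← h1, eq_sub_iff_add_eq, ← Finset.sum_filter_add_sum_filter_not
      (Finset.univ.filter fun x : G => x ∈ (S : Subgroup G)) (fun x => x ≠ 1), Finset.filter_filter]
    congr 1
    rw [Finset.sum_eq_single (1 : G)]
    · intro x hx hne
      exact absurd hne (Finset.mem_filter.1 hx).2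
    · intro h
      exact absurd (Finset.mem_filter.2 ⟨Finset.mem_filter.2 ⟨Finset.mem_univ _, one_mem _⟩,
        not_not.2 rfl⟩) h
  have hkey : (Finset.univ.filter fun x : G => orderOf x = q) = Finset.univ.biUnion fun S : Sylow q G =>
      Finset.univ.filter fun x : G => x ∈ (S : Subgroup G) ∧ x ≠ 1 := by
    ext x
    simp only [Finset.mem_filter, Finset.mem_biUnion, Finset.mem_univ, true_and]
    constructor
    · intro hx
      obtain ⟨S, hS⟩ := (IsPGroup.of_card (n := 1) (by rw [Nat.card_zpowers, hx, pow_one]) :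
        IsPGroup q (Subgroup.zpowers x)).exists_le_sylow
      refine ⟨S, hS (Subgroup.mem_zpowers x), fun h => ?_⟩
      rw [h, orderOf_one] at hx
      exact hq.ne_one hx.symm
    · rintro ⟨S, hxS, hx1⟩
      exact ((Nat.dvd_prime hq).1 (hcardS S ▸ Subgroup.orderOf_dvd_natCard _ hxS)).resolve_left
        fun h => hx1 (orderOf_eq_one_iff.1 h)
  rw [hkey, Finset.sum_biUnion]
  · simp only [hsyl, Finset.sum_const, Finset.card_univ, nsmul_eq_mul, Nat.card_eq_fintype_card]
  · intro S _ T _ hne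
    rw [Function.onFun, Finset.disjoint_left]
    intro x hxS hxT
    simp only [Finset.mem_filter, Finset.mem_univ, true_and] at hxS hxT
    have hx : orderOf x = q := ((Nat.dvd_prime hq).1 (hcardS S ▸ Subgroup.orderOf_dvd_natCard _ hxS.1)).resolve_left
        fun h => hxS.2 (orderOf_eq_one_iff.1 h)
    have e : ∀ U : Sylow q G, x ∈ (U : Subgroup G) → Subgroup.zpowers x = (U : Subgroup G) := fun U hU =>
      Subgroup.eq_of_le_of_card_ge (Subgroup.zpowers_le.2 hU) (by rw [Nat.card_zpowers, hx, hcardS])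
    exact hne (Sylow.ext ((e S hxS.1).symm.trans (e T hxT.1)))

end CfsgLib.Jordan
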