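import Cfsg.Agent.Lib.Jordan.IntCoeff
import Cfsg.Agent.Lib.Jordan.GaloisNorm
import Cfsg.Prelude.Def_Blocks
import Mathlib.Analysis.SpecialFunctions.Complex.CircleAddChar
import Mathlib.GroupTheory.Coset.Basic
import Mathlib.GroupTheory.PGroup

/-!
Class functions of a group acting on a module of coprime characteristic whose squared absolute value
is the index of the fixed points: the symmetric case, by Gauss sums.
-/

set_option autoImplicit false
set_option linter.style.haveILetI false
set_option linter.unusedSectionVars false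

open scoped ComplexConjugate
open Cfsg

namespace CfsgLib.Jordan

variable {H : Type*} [Group H] [Fintype H] {U : Type*} [AddCommGroup U]

/-- The fixed points of `h`. -/
def fixGrp (act : H →* AddMonoid.End U) (h : H) : AddSubgroup U where
  carrier := {u | act h u = u}
  zero_mem' := map_zero _
  add_mem' {a b} ha hb := by rw [Set.mem_setOf_eq, map_add, ha, hb]
  neg_mem' {a} ha := by rw [Set.mem_setOf_eq, map_neg, ha]

@[simp] theorem mem_fixGrp {act : H →* AddMonoid.End U} {h : H} {u : U} :
    u ∈ fixGrp act h ↔ act h u = u := Iff.rfl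

/-- A class function measuring the index of the fixed points. -/
def GoodTheta (p : ℕ) (act : H →* AddMonoid.End U) (θ : H → ℂ) : Prop :=
  IntCoeff θ ∧ (∀ h, IsIntegral ℤ (θ h)) ∧ θ 1 = 1 ∧
    (∀ h, ‖θ h‖ ^ 2 * (Nat.card (fixGrp act h) : ℝ) = Nat.card U) ∧
    (∀ h, (∃ u, act h u ≠ u) → ∀ M : Ideal AlgInt, M.IsPrime → (p : AlgInt) ∈ M →
      ∃ z ∈ M, (z : ℂ) = θ h) ∧
    ∀ (n : ℕ) [NeZero n], p ∣ n → (∀ h : H, h ^ n = 1) → ∀ h, θ h ∈ cycField n

theorem act_act (act : H →* AddMonoid.End U) (g h : H) (u : U) : act g (act h u) = act (g * h) u := by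
  rw [map_mul]; rfl

theorem act_inv_act (act : H →* AddMonoid.End U) (h : H) (u : U) : act h⁻¹ (act h u) = u := by
  rw [act_act, inv_mul_cancel, map_one]; rfl

theorem act_act_inv (act : H →* AddMonoid.End U) (h : H) (u : U) : act h (act h⁻¹ u) = u := by
  rw [act_act, mul_inv_cancel, map_one]; rfl

/-- The permutations of an action. -/
def permHom (act : H →* AddMonoid.End U) : H →* Equiv.Perm U where
  toFun h := ⟨act h, act h⁻¹, act_inv_act act h, act_act_inv act h⟩
  map_one' := Equiv.ext fun u => by
    show act 1 u = u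
    rw [map_one]; rfl
  map_mul' g h := Equiv.ext fun u => (act_act act g h u).symm

@[simp] theorem permHom_apply (act : H →* AddMonoid.End U) (h : H) (u : U) :
    permHom act h u = act h u := rfl

variable {p : ℕ} [hp : Fact p.Prime]

/-- An element fixing a displacement fixes the point, in coprime characteristic. -/
theorem fix_of_fix_sub (hH : ¬ p ∣ Nat.card H) (hU : ∀ u : U, p • u = 0)
    (act : H →* AddMonoid.End U) (h : H) (w : U) (hd : act h (act h w - w) = act h w - w) :
    act h w = w := by
  set d := act h w - w with hdef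
  have hk : ∀ k : ℕ, act (h ^ k) w = w + k • d := by
    intro k
    induction k with
    | zero => simp
    | succ k ih =>
      rw [pow_succ', ← act_act, ih, map_add, map_nsmul, hd, hdef, succ_nsmul]
      abel
  have h1 := hk (orderOf h)
  rw [pow_orderOf_eq_one, map_one] at h1
  have h2 : orderOf h • d = 0 := by
    have : w = w + orderOf h • d := h1
    rwa [left_eq_add] at this
  have h3 : addOrderOf d = 1 := Nat.eq_one_of_dvd_coprimes
    ((hp.out.coprime_iff_not_dvd).2 fun hc => hH (hc.trans (orderOf_dvd_natCard h)))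
    (addOrderOf_dvd_of_nsmul_eq_zero (hU d)) (addOrderOf_dvd_of_nsmul_eq_zero h2)
  rw [AddMonoid.addOrderOf_eq_one_iff, hdef, sub_eq_zero] at h3
  exact h3

variable [Fintype U]

theorem isPGroup_card (hU : ∀ u : U, p • u = 0) (S : AddSubgroup U) :
    ∃ k : ℕ, Nat.card S = p ^ k := by
  have h : IsPGroup p (Multiplicative S) := fun x => ⟨1, by
    rw [pow_one]
    exact congrArg Multiplicative.ofAdd (Subtype.ext (hU x.toAdd) : p • x.toAdd = 0)⟩
  obtain ⟨k, hk⟩ := IsPGroup.iff_card.1 h
  exact ⟨k, hk⟩

theorem isPGroup_card_univ (hU : ∀ u : U, p • u = 0) : ∃ k : ℕ, Nat.card U = p ^ k := by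
  obtain ⟨k, hk⟩ := isPGroup_card hU (⊤ : AddSubgroup U)
  exact ⟨k, by rw [← hk, AddSubgroup.card_top]⟩

/-- The number of fixed points has integral coefficients. -/
theorem intCoeff_fix (act : H →* AddMonoid.End U) :
    IntCoeff (fun h => (Nat.card (fixGrp act h) : ℂ)) := by
  classical
  have := intCoeff_kernel (permHom act) (fun x y => if x = y then 1 else 0)
    (fun x y => by split_ifs <;> [exact isIntegral_one; exact isIntegral_zero])
    (fun h x y => by
      have e : act h x = act h y ↔ x = y := (permHom act h).injective.eq_iff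
      simp only [permHom_apply, e])
  convert this using 2 with h
  rw [Finset.sum_boole, Nat.card_eq_fintype_card, Fintype.card_subtype]
  congr 2
  exact Finset.filter_congr fun u _ => ⟨fun e => e.symm, fun e => e.symm⟩

theorem stdAddChar_isIntegral (x : ZMod p) : IsIntegral ℤ (ZMod.stdAddChar x : ℂ) := by
  refine IsIntegral.of_pow hp.out.pos ?_
  rw [← AddChar.map_nsmul_eq_pow, nsmul_eq_mul, ZMod.natCast_self, zero_mul, AddChar.map_zero_eq_one]
  exact isIntegral_one

theorem stdAddChar_sub_one_mem (M : Ideal AlgInt) (hM : M.IsPrime) (hp' : (p : AlgInt) ∈ M)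
    (x : ZMod p) : (⟨_, stdAddChar_isIntegral x⟩ : AlgInt) - 1 ∈ M := by
  refine hM.mem_of_pow_mem p ?_
  set z : AlgInt := ⟨_, stdAddChar_isIntegral x⟩
  have hz : z ^ p = 1 := Subtype.ext (by
    push_cast
    rw [← AddChar.map_nsmul_eq_pow, nsmul_eq_mul, ZMod.natCast_self, zero_mul, AddChar.map_zero_eq_one])
  obtain ⟨r, hr⟩ := exists_add_pow_prime_eq hp.out (z - 1) (1 : AlgInt)
  rw [sub_add_cancel, hz, one_pow] at hr
  have : (z - 1) ^ p = -((p : AlgInt) * (z - 1) * 1 * r) := by linear_combination -hr
  rw [this]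
  exact M.neg_mem (M.mul_mem_right _ (M.mul_mem_right _ (M.mul_mem_right _ hp')))

/-- The symmetric case. -/
theorem exists_theta_symm (hH : ¬ p ∣ Nat.card H) (hU : ∀ u : U, p • u = 0)
    (act : H →* AddMonoid.End U) (β : U →+ U →+ ZMod p) (hsymm : ∀ u w, β u w = β w u)
    (hnd : ∀ u, (∀ w, β u w = 0) → u = 0) (hinv : ∀ h u w, β (act h u) (act h w) = β u w) :
    ∃ θ : H → ℂ, GoodTheta p act θ := by
  classical
  let e : AddChar (ZMod p) ℂ := ZMod.stdAddChar
  let f : H → U → ZMod p := fun h u => β u u - β u (act h u)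
  set g : H → ℂ := fun h => ∑ u, e (f h u) with hg
  have hadd : ∀ h u w, f h (u + w) = f h u + f h w +
      (2 * β u w - β u (act h w) - β u (act h⁻¹ w)) := by
    intro h u w
    have e1 : β w (act h u) = β u (act h⁻¹ w) := by
      rw [hsymm u, ← hinv h (act h⁻¹ w) u, act_act_inv]
    simp only [f, map_add, AddMonoidHom.add_apply, hsymm w u, e1]
    ring
  have hrad : ∀ h w, act h w = w ↔ ∀ u, 2 * β u w - β u (act h w) - β u (act h⁻¹ w) = 0 := by
    intro h w
    constructor
    · intro hw u
      have : act h⁻¹ w = w := by conv_lhs => rw [← hw, act_inv_act]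
      rw [hw, this]; ring
    · intro hu
      refine fix_of_fix_sub hH hU act h w ?_
      have hz : (w + w - act h w - act h⁻¹ w) = 0 := hnd _ fun u => by
        rw [hsymm]
        simp only [map_add, map_sub]
        linear_combination hu u
      have := congrArg (act h) hz
      simp only [map_add, map_sub, map_zero, act_act_inv] at this
      rw [map_sub, ← sub_eq_zero, ← neg_eq_zero, ← this]
      abel
  have hfC : ∀ h c, act h c = c → ∀ u, f h (u + c) = f h u := by
    intro h c hc u
    rw [hadd, (hrad h c).1 hc u]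
    simp only [f, hc, sub_self, add_zero]
  -- the value as a sum over cosets
  set θ : H → ℂ := fun h => ∑ q : U ⧸ fixGrp act h, e (f h q.out) with hθ
  have hgθ : ∀ h, g h = (Nat.card (fixGrp act h) : ℂ) * θ h := by
    intro h
    have hconst : ∀ u : U, e (f h u) = e (f h (u : U ⧸ fixGrp act h).out) := fun u => by
      obtain ⟨c, hc⟩ := QuotientAddGroup.mk_out_eq_mul (fixGrp act h) u
      rw [hc, hfC h _ c.2]
    rw [hg, hθ, Finset.mul_sum]
    simp only
    rw [← Finset.sum_fiberwise (g := fun u : U => (u : U ⧸ fixGrp act h))]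
    refine Finset.sum_congr rfl fun q _ => ?_
    rw [Finset.sum_congr rfl fun u hu => by rw [hconst u, (Finset.mem_filter.1 hu).2],
      Finset.sum_const, nsmul_eq_mul]
    congr 2
    rw [← Fintype.card_subtype, ← Nat.card_eq_fintype_card]
    refine Nat.card_congr ⟨fun u => ⟨-q.out + u.1, QuotientAddGroup.eq.1 ?_⟩,
      fun c => ⟨q.out + c.1, ?_⟩, fun u => by simp, fun c => by simp⟩
    · rw [u.2, QuotientAddGroup.out_eq']
    · rw [QuotientAddGroup.mk_add_of_mem _ c.2, QuotientAddGroup.out_eq']
  have hnorm : ∀ h, ‖g h‖ ^ 2 = (Nat.card U : ℝ) * Nat.card (fixGrp act h) := by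
    intro h
    have key : g h * conj (g h) = (Nat.card U : ℂ) * Nat.card (fixGrp act h) := by
      let L : U → U →+ ZMod p := fun u =>
        AddMonoidHom.mk' (fun w => 2 * β u w - β u (act h w) - β u (act h⁻¹ w))
          (fun a b => by simp only [map_add]; ring)
      have h1 : g h * conj (g h) = ∑ u, e (f h u) * ∑ w, (e.compAddMonoidHom (L u)) w := by
        calc g h * conj (g h) = ∑ w, ∑ x, e (f h x) * e (-f h w) := by
              rw [hg, map_sum, Finset.sum_mul_sum, Finset.sum_comm]
              simp only [AddChar.map_neg_eq_conj]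
          _ = ∑ w, ∑ u, e (f h (u + w)) * e (-f h w) := Finset.sum_congr rfl fun w _ =>
              (Fintype.sum_equiv (Equiv.addRight w) _ _ fun u => rfl).symm
          _ = ∑ u, e (f h u) * ∑ w, (e.compAddMonoidHom (L u)) w := by
              rw [Finset.sum_comm]
              refine Finset.sum_congr rfl fun u _ => ?_
              rw [Finset.mul_sum]
              refine Finset.sum_congr rfl fun w _ => ?_
              rw [← AddChar.map_add_eq_mul, AddChar.compAddMonoidHom_apply, ← AddChar.map_add_eq_mul, hadd]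
              congr 1
              simp only [L, AddMonoidHom.mk'_apply]
              ring
      have h2 : ∀ u, ∑ w, (e.compAddMonoidHom (L u)) w = if act h u = u then (Nat.card U : ℂ) else 0 := by
        intro u
        have hL : act h u = u ↔ ∀ w, L u w = 0 := by
          rw [hrad]
          refine forall_congr' fun w => ?_
          have e1 : β w (act h u) = β u (act h⁻¹ w) := by
            rw [hsymm u, ← hinv h (act h⁻¹ w) u, act_act_inv]
          have e2 : β w (act h⁻¹ u) = β u (act h w) := by
            rw [hsymm u, ← hinv h w (act h⁻¹ u), act_act_inv]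
          simp only [L, AddMonoidHom.mk'_apply, e1, e2, hsymm w u]
          constructor <;> intro h' <;> linear_combination h'
        split_ifs with hu
        · simp [AddChar.compAddMonoidHom_apply, hL.1 hu, Nat.card_eq_fintype_card]
        · refine AddChar.sum_eq_zero_of_ne_one fun h' => hu (hL.2 fun w => ?_)
          have := DFunLike.congr_fun h' w
          rw [AddChar.compAddMonoidHom_apply, AddChar.one_apply] at this
          exact ZMod.injective_stdAddChar (this.trans (AddChar.map_zero_eq_one _).symm)
      rw [h1, Finset.sum_congr rfl (g := fun u => if act h u = u then (Nat.card U : ℂ) else 0)]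
      · rw [← Finset.sum_filter, Finset.sum_const, nsmul_eq_mul, mul_comm,
          Nat.card_eq_fintype_card (α := fixGrp act h), Fintype.card_subtype]
        simp
      · intro u _
        rw [h2]
        split_ifs with hu
        · rw [show f h u = 0 by simp [f, hu], AddChar.map_zero_eq_one, one_mul]
        · rw [mul_zero]
    rw [Complex.mul_conj'] at key
    exact_mod_cast key
  have hint : ∀ h, IsIntegral ℤ (θ h) := fun h => IsIntegral.sum _ fun q _ => stdAddChar_isIntegral _
  have hC0 : ∀ h, (Nat.card (fixGrp act h) : ℂ) ≠ 0 := fun h => Nat.cast_ne_zero.2 Nat.card_pos.ne'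
  have hgI : IntCoeff g := by
    refine intCoeff_kernel (permHom act) (fun x y => e (β x x - β x y))
      (fun x y => stdAddChar_isIntegral _) (fun h x y => ?_)
    simp only [permHom_apply, hinv]
  refine ⟨θ, ?_, hint, ?_, fun h => ?_, fun h hh M hM hp' => ?_, fun n _ hpn _ h => ?_⟩
  · have e1 : (fun h => (Nat.card (fixGrp act h) : ℂ)) * θ = g := funext fun h => (hgθ h).symm
    refine intCoeff_of_mul hH (intCoeff_fix act) (fun h => ?_) (fun a b => ?_) hint (e1 ▸ hgI)
    · obtain ⟨k, hk⟩ := isPGroup_card hU (fixGrp act h)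
      exact ⟨k, by rw [hk, Nat.cast_pow]⟩
    · refine mul_left_cancel₀ (hC0 (b * a * b⁻¹)) ?_
      have e2 := (intCoeff_fix act).1 a b
      simp only at e2
      rw [← hgθ, hgI.1 a b, hgθ, e2]
  · refine mul_left_cancel₀ (hC0 1) ?_
    rw [← hgθ, mul_one]
    simp [hg, f, Nat.card_eq_fintype_card, Fintype.card_subtype]
  · have h1 := hnorm h
    rw [hgθ, norm_mul, Complex.norm_natCast] at h1
    have hc : (0 : ℝ) < Nat.card (fixGrp act h) := by exact_mod_cast Nat.card_pos
    nlinarith
  · obtain ⟨u, hu⟩ := hh
    refine ⟨∑ q : U ⧸ fixGrp act h, (⟨_, stdAddChar_isIntegral (f h q.out)⟩ : AlgInt), ?_, ?_⟩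
    · have hcard : ((Fintype.card (U ⧸ fixGrp act h) : ℕ) : AlgInt) ∈ M := by
        obtain ⟨k, hk⟩ := isPGroup_card_univ hU
        have hdvd : Fintype.card (U ⧸ fixGrp act h) ∣ p ^ k := by
          rw [← hk, ← Nat.card_eq_fintype_card]; exact AddSubgroup.card_quotient_dvd_card _
        obtain ⟨j, -, hj⟩ := (Nat.dvd_prime_pow hp.out).1 hdvd
        rw [hj]
        have hj0 : j ≠ 0 := fun h0 => by
          rw [h0, pow_zero, Fintype.card_eq_one_iff] at hj
          obtain ⟨q, hq⟩ := hj
          have := (hq (u : U ⧸ fixGrp act h)).trans (hq ((0 : U) : U ⧸ fixGrp act h)).symm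
          rw [QuotientAddGroup.eq] at this
          exact hu (by simpa using this)
        rw [Nat.cast_pow]
        exact Ideal.pow_mem_of_mem M hp' j (Nat.pos_of_ne_zero hj0)
      have := M.add_mem (Submodule.sum_mem M (t := Finset.univ) fun q _ =>
        stdAddChar_sub_one_mem M hM hp' (f h (q : U ⧸ fixGrp act h).out)) hcard
      rwa [Finset.sum_sub_distrib, Finset.sum_const, Finset.card_univ, nsmul_eq_mul, mul_one,
        sub_add_cancel] at this
    · simp only [hθ]
      push_cast
      rfl
  · refine sum_mem fun q _ => mem_cycField_of_pow_eq_one ?_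
    obtain ⟨m, rfl⟩ := hpn
    rw [← AddChar.map_nsmul_eq_pow, nsmul_eq_mul, Nat.cast_mul, ZMod.natCast_self, zero_mul, zero_mul,
      AddChar.map_zero_eq_one]

end CfsgLib.Jordan
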