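import Cfsg.Agent.Lib.Jordan.GaussTheta
import Cfsg.Agent.Lib.Blocks.CentralDefect
import Cfsg.Agent.Lib.Coherence.CoprimeExtension
import Mathlib.GroupTheory.SemidirectProduct
import Mathlib.GroupTheory.NoncommCoprod

/-!
Class functions of a group acting on a module of coprime odd characteristic whose squared absolute
value is the index of the fixed points: the alternating case, by extending the character of a
Heisenberg group.
-/

set_option autoImplicit false
set_option linter.style.haveILetI false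
set_option linter.unusedSectionVars false

open scoped ComplexConjugate
open Cfsg CfsgLib.CharTheory

namespace CfsgLib.Jordan

/-- The Heisenberg group of a bilinear map. -/
@[ext] structure Heis {U : Type*} [AddCommGroup U] {p : ℕ} (a : U →+ U →+ ZMod p) where
  /-- The vector part. -/
  vec : U
  /-- The central part. -/
  cen : ZMod p

section Group

variable {U : Type*} [AddCommGroup U] {p : ℕ} {a : U →+ U →+ ZMod p}

instance : One (Heis a) := ⟨⟨0, 0⟩⟩
instance : Mul (Heis a) := ⟨fun x y => ⟨x.vec + y.vec, x.cen + y.cen + a x.vec y.vec⟩⟩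
instance : Inv (Heis a) := ⟨fun x => ⟨-x.vec, -x.cen + a x.vec x.vec⟩⟩

@[simp] theorem Heis.one_vec : (1 : Heis a).vec = 0 := rfl
@[simp] theorem Heis.one_cen : (1 : Heis a).cen = 0 := rfl
@[simp] theorem Heis.mul_vec (x y : Heis a) : (x * y).vec = x.vec + y.vec := rfl
@[simp] theorem Heis.mul_cen (x y : Heis a) : (x * y).cen = x.cen + y.cen + a x.vec y.vec := rfl
@[simp] theorem Heis.inv_vec (x : Heis a) : x⁻¹.vec = -x.vec := rfl
@[simp] theorem Heis.inv_cen (x : Heis a) : x⁻¹.cen = -x.cen + a x.vec x.vec := rfl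

instance : Group (Heis a) :=
  Group.ofLeftAxioms
    (fun x y z => by
      ext
      · simp [add_assoc]
      · simp only [Heis.mul_cen, Heis.mul_vec, map_add, AddMonoidHom.add_apply]; ring)
    (fun x => by ext <;> simp)
    (fun x => by ext <;> simp)

/-- The underlying pairs. -/
def Heis.equiv : Heis a ≃ U × ZMod p :=
  ⟨fun x => (x.vec, x.cen), fun q => ⟨q.1, q.2⟩, fun _ => rfl, fun _ => rfl⟩

noncomputable instance [Finite U] [NeZero p] : Fintype (Heis a) :=
  haveI : Finite (Heis a) := Finite.of_equiv _ Heis.equiv.symm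
  Fintype.ofFinite _

theorem Heis.card [Finite U] [NeZero p] : Nat.card (Heis a) = Nat.card U * p := by
  rw [Nat.card_congr Heis.equiv, Nat.card_prod, Nat.card_zmod]

theorem Heis.mem_center (x : ZMod p) : (⟨0, x⟩ : Heis a) ∈ Subgroup.center (Heis a) := by
  refine Subgroup.mem_center_iff.2 fun y => ?_
  ext <;> simp [add_comm]

end Group

variable {p : ℕ} [hp : Fact p.Prime]

theorem two_mul_ne_zero_of_odd (hp2 : p ≠ 2) {x : ZMod p} (hx : x ≠ 0) : 2 * x ≠ 0 := by
  refine mul_ne_zero (fun h => hp2 ?_) hx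
  have h2 : ((2 : ℕ) : ZMod p) = 0 := by exact_mod_cast h
  rw [ZMod.natCast_eq_zero_iff] at h2
  exact ((Nat.prime_dvd_prime_iff_eq hp.out Nat.prime_two).1 h2)

/-- The faithful irreducible character of a Heisenberg group. -/
theorem exists_heis_char (hp2 : p ≠ 2) {U : Type*} [AddCommGroup U] [Fintype U]
    (a : U →+ U →+ ZMod p) (halt : ∀ u w, a u w = -a w u)
    (hnd : ∀ u, (∀ w, a u w = 0) → u = 0) :
    ∃ (χ : IrrCharacter (Heis a)) (d : ℕ), d * d = Nat.card U ∧
      (∀ x : ZMod p, (χ : Heis a → ℂ) ⟨0, x⟩ = d * ZMod.stdAddChar x) ∧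
      ∀ g : Heis a, g.vec ≠ 0 → (χ : Heis a → ℂ) g = 0 := by
  classical
  let e : AddChar (ZMod p) ℂ := ZMod.stdAddChar
  let F : Heis a → ℂ := fun g => if g.vec = 0 then e g.cen else 0
  have hF : IsClassFunction (Heis a) F := by
    intro g k
    by_cases hg : g.vec = 0
    · have hz : g = ⟨0, g.cen⟩ := Heis.ext hg rfl
      rw [hz, Subgroup.mem_center_iff.1 (Heis.mem_center g.cen) k, mul_inv_cancel_right]
    · have : (k * g * k⁻¹).vec ≠ 0 := by simpa using hg
      simp only [F, if_neg hg, if_neg this]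
  obtain ⟨χ, hχ⟩ : ∃ χ : IrrCharacter (Heis a), classInner F (χ : Heis a → ℂ) ≠ 0 := by
    by_contra hall
    push Not at hall
    have := congrFun (eq_zero_of_forall_classInner hF hall) 1
    simp [F] at this
  obtain ⟨d, hd0, hd⟩ := exists_degree_of_isIrr χ.2
  have hdne : (d : ℂ) ≠ 0 := Nat.cast_ne_zero.2 hd0.ne'
  have hmul : ∀ (x : ZMod p) (g : Heis a),
      (χ : Heis a → ℂ) (⟨0, x⟩ * g) * d = (χ : Heis a → ℂ) ⟨0, x⟩ * (χ : Heis a → ℂ) g := by
    intro x g
    rw [← hd]
    exact CfsgLib.Blocks.irr_mul_mem_center χ (Heis.mem_center x) g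
  -- the central character
  have hS : ∑ x : ZMod p, (χ : Heis a → ℂ) ⟨0, x⟩ * e (-x) ≠ 0 := by
    intro h0
    refine hχ ?_
    rw [classInner_conj_symm, classInner]
    rw [show ∑ g : Heis a, (χ : Heis a → ℂ) g * conj (F g) =
      ∑ x : ZMod p, (χ : Heis a → ℂ) ⟨0, x⟩ * e (-x) from ?_, h0, mul_zero, map_zero]
    rw [Fintype.sum_equiv Heis.equiv (fun g => (χ : Heis a → ℂ) g * conj (F g))
      (fun q => (χ : Heis a → ℂ) ⟨q.1, q.2⟩ * conj (F ⟨q.1, q.2⟩)) (fun g => rfl),
      Fintype.sum_prod_type, Finset.sum_eq_single (0 : U)]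
    · exact Finset.sum_congr rfl fun x _ => by simp [F, e, AddChar.map_neg_eq_conj]
    · intro u _ hu
      exact Finset.sum_eq_zero fun x _ => by simp [F, hu]
    · simp
  have hcen : ∀ x : ZMod p, (χ : Heis a → ℂ) ⟨0, x⟩ = d * e x := by
    intro y
    refine mul_right_cancel₀ hS ?_
    rw [Finset.mul_sum, Finset.mul_sum]
    refine (Finset.sum_congr rfl fun x _ => ?_).trans
      (Fintype.sum_equiv (Equiv.addLeft y) (fun x => (d : ℂ) * (e y * ((χ : Heis a → ℂ) ⟨0, y + x⟩ * e (-(y + x)))))
        (fun x => (d : ℂ) * e y * ((χ : Heis a → ℂ) ⟨0, x⟩ * e (-x))) fun x => by simp [mul_assoc])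
    have h1 : (⟨0, y⟩ : Heis a) * ⟨0, x⟩ = ⟨0, y + x⟩ := by ext <;> simp
    have h2 : e y * e (-(y + x)) = e (-x) := by
      rw [← AddChar.map_add_eq_mul]; congr 1; ring
    rw [← mul_assoc ((χ : Heis a → ℂ) ⟨0, y⟩), ← hmul y ⟨0, x⟩, h1, ← h2]
    ring
  have hoff : ∀ g : Heis a, g.vec ≠ 0 → (χ : Heis a → ℂ) g = 0 := by
    intro g hg
    obtain ⟨w, hw⟩ : ∃ w, a g.vec w ≠ 0 := by
      by_contra hall
      push Not at hall
      exact hg (hnd _ hall)
    have hk : (⟨w, 0⟩ : Heis a) * g * (⟨w, 0⟩ : Heis a)⁻¹ = ⟨0, 2 * a w g.vec⟩ * g := by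
      ext
      · simp
      · simp only [Heis.mul_cen, Heis.inv_cen, Heis.mul_vec, Heis.inv_vec, map_add, map_neg, map_zero,
          AddMonoidHom.add_apply, AddMonoidHom.zero_apply]
        rw [halt g.vec w]
        ring
    have h1 := hmul (2 * a w g.vec) g
    rw [← hk, IsIrrCharacter.isClassFunction χ.2, hcen] at h1
    have h2 : e (2 * a w g.vec) ≠ 1 := fun h =>
      two_mul_ne_zero_of_odd hp2 (show a w g.vec ≠ 0 by rw [halt]; simpa using hw)
        (ZMod.injective_stdAddChar (h.trans (AddChar.map_zero_eq_one _).symm))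
    by_contra hne
    refine h2 (mul_left_cancel₀ hdne (mul_right_cancel₀ hne ?_))
    rw [← h1]; ring
  refine ⟨χ, d, ?_, hcen, hoff⟩
  have h := classInner_self_of_isIrr χ.2
  rw [classInner, inv_mul_eq_one₀ (Nat.cast_ne_zero.2 Nat.card_pos.ne')] at h
  rw [Fintype.sum_equiv Heis.equiv (fun g => (χ : Heis a → ℂ) g * conj ((χ : Heis a → ℂ) g))
      (fun q => (χ : Heis a → ℂ) ⟨q.1, q.2⟩ * conj ((χ : Heis a → ℂ) ⟨q.1, q.2⟩)) (fun g => rfl),
    Fintype.sum_prod_type, Finset.sum_eq_single (0 : U)] at h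
  · rw [Finset.sum_congr rfl (g := fun _ => ((d * d : ℕ) : ℂ))] at h
    · rw [Finset.sum_const, Finset.card_univ, ZMod.card, nsmul_eq_mul, Heis.card] at h
      push_cast at h
      have hp0 : (p : ℂ) ≠ 0 := Nat.cast_ne_zero.2 hp.out.ne_zero
      have : (Nat.card U : ℂ) = ((d * d : ℕ) : ℂ) := by
        refine mul_right_cancel₀ hp0 ?_
        push_cast
        rw [h]; ring
      exact_mod_cast this.symm
    · intro x _
      rw [hcen, map_mul, Complex.conj_natCast, mul_mul_mul_comm, ← AddChar.map_neg_eq_conj,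
        ← AddChar.map_add_eq_mul, add_neg_cancel, AddChar.map_zero_eq_one, mul_one, Nat.cast_mul]
  · intro u _ hu
    exact Finset.sum_eq_zero fun x _ => by rw [hoff ⟨u, x⟩ hu, zero_mul]
  · simp


variable {H : Type*} [Group H] [Fintype H] {U : Type*} [AddCommGroup U] [Fintype U]

/-- The automorphism of the Heisenberg group given by an element of `H`. -/
def heisAut (act : H →* AddMonoid.End U) (a : U →+ U →+ ZMod p)
    (hinv : ∀ h u w, a (act h u) (act h w) = a u w) : H →* MulAut (Heis a) where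
  toFun h :=
    { toFun := fun x => ⟨act h x.vec, x.cen⟩
      invFun := fun x => ⟨act h⁻¹ x.vec, x.cen⟩
      left_inv := fun x => Heis.ext (act_inv_act act h x.vec) rfl
      right_inv := fun x => Heis.ext (act_act_inv act h x.vec) rfl
      map_mul' := fun x y => Heis.ext (map_add _ _ _) (by simp [hinv]) }
  map_one' := by
    ext x
    · show act 1 x.vec = x.vec
      rw [map_one]; rfl
    · rfl
  map_mul' g h := by
    ext x
    · exact (act_act act g h x.vec).symm
    · rfl

set_option maxHeartbeats 800000 in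
/-- The alternating case in odd characteristic. -/
theorem exists_theta_alt (hH : ¬ p ∣ Nat.card H) (hp2 : p ≠ 2) (hU : ∀ u : U, p • u = 0)
    (act : H →* AddMonoid.End U) (a : U →+ U →+ ZMod p) (halt : ∀ u w, a u w = -a w u)
    (hnd : ∀ u, (∀ w, a u w = 0) → u = 0) (hinv : ∀ h u w, a (act h u) (act h w) = a u w) :
    ∃ θ : H → ℂ, GoodTheta p act θ := by
  classical
  let e : AddChar (ZMod p) ℂ := ZMod.stdAddChar
  have haz : ∀ u, a u u = 0 := fun u => by
    by_contra hne
    refine two_mul_ne_zero_of_odd hp2 hne ?_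
    rw [two_mul]
    exact eq_neg_iff_add_eq_zero.1 (halt u u)
  obtain ⟨φ, n, hn, hφc, hφ0⟩ := exists_heis_char hp2 a halt hnd
  have hn0 : n ≠ 0 := fun h => by
    rw [h, zero_mul] at hn
    exact Nat.card_pos.ne hn
  have hnC : (n : ℂ) ≠ 0 := Nat.cast_ne_zero.2 hn0
  set A := heisAut act a hinv with hA
  haveI : Finite (Heis a ⋊[A] H) := Finite.of_equiv _ SemidirectProduct.equivProd.symm
  haveI := Fintype.ofFinite (Heis a ⋊[A] H)
  let inl : Heis a →* Heis a ⋊[A] H := SemidirectProduct.inl
  have hinl : Function.Injective inl := SemidirectProduct.inl_injective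
  set N := inl.range with hN
  haveI hNn : N.Normal := by
    rw [hN, show inl.range = _ from SemidirectProduct.range_inl_eq_ker_rightHom]
    exact MonoidHom.normal_ker _
  let eN : Heis a ≃* N := MonoidHom.ofInjective hinl
  have heN : ∀ k, ((eN k : N) : Heis a ⋊[A] H) = inl k := fun k => MonoidHom.ofInjective_apply hinl
  obtain ⟨k0, hk0⟩ := isPGroup_card_univ hU
  have hcardN : Nat.card N = Nat.card U * p := by
    rw [← Nat.card_congr eN.toEquiv, Heis.card]
  have hcop : Nat.Coprime (Nat.card N) N.index := by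
    have hidx : N.index = Nat.card H := by
      rw [hN, show inl.range = _ from SemidirectProduct.range_inl_eq_ker_rightHom, Subgroup.index_ker,
        MonoidHom.range_eq_top.2 SemidirectProduct.rightHom_surjective, Subgroup.card_top]
    rw [hidx, hcardN, hk0, ← pow_succ]
    exact ((hp.out.coprime_iff_not_dvd).2 hH).pow_left _
  have hϑ : IsIrrCharacter N (fun y => (φ : Heis a → ℂ) (eN.symm y)) :=
    isIrrCharacter_comp φ.2 (f := eN.symm.toMonoidHom) eN.symm.surjective
  have hact : ∀ (h : H) (k : Heis a), (φ : Heis a → ℂ) (A h k) = (φ : Heis a → ℂ) k := by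
    intro h k
    by_cases hv : k.vec = 0
    · have : A h k = k := Heis.ext (by show act h k.vec = k.vec; rw [hv, map_zero]) rfl
      rw [this]
    · have : (A h k).vec ≠ 0 := fun h0 => hv (by
        have h1 : act h⁻¹ (act h k.vec) = act h⁻¹ 0 := congrArg _ h0
        rwa [act_inv_act, map_zero] at h1)
      rw [hφ0 k hv, hφ0 _ this]
  obtain ⟨ψ, hψ, hψN⟩ := CfsgLib.Coherence.exists_extension_character_of_coprime N hcop _ hϑ (by
    intro g y
    obtain ⟨k, rfl⟩ := eN.surjective y
    have hg : g = inl g.left * SemidirectProduct.inr g.right := (SemidirectProduct.inl_left_mul_inr_right g).symm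
    have hconj : MulAut.conjNormal g (eN k) = eN (g.left * A g.right k * g.left⁻¹) := by
      refine Subtype.ext ?_
      rw [MulAut.conjNormal_apply, heN, heN, map_mul, map_mul, map_inv, SemidirectProduct.inl_aut]
      conv_lhs => rw [hg]
      simp only [inl, map_inv]
      group
    simp only [hconj, MulEquiv.symm_apply_apply]
    rw [IsIrrCharacter.isClassFunction φ.2, hact])
  have hψk : ∀ k : Heis a, ψ (inl k) = (φ : Heis a → ℂ) k := fun k => by
    have := hψN (eN k)
    rw [heN, MulEquiv.symm_apply_apply] at this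
    exact this
  have hψ1 : ψ 1 = n := by
    rw [← map_one inl, hψk, show (1 : Heis a) = ⟨0, 0⟩ from rfl, hφc, AddChar.map_zero_eq_one, mul_one]
  -- the central part
  have hcenter : ∀ x : ZMod p, inl ⟨0, x⟩ ∈ Subgroup.center (Heis a ⋊[A] H) := by
    intro x
    refine Subgroup.mem_center_iff.2 fun g => ?_
    refine SemidirectProduct.ext ?_ (by simp [inl])
    simp only [inl, SemidirectProduct.mul_left, SemidirectProduct.left_inl, SemidirectProduct.right_inl,
      map_one, MulAut.one_apply]
    rw [show A g.right ⟨0, x⟩ = (⟨0, x⟩ : Heis a) from Heis.ext (map_zero (act g.right)) rfl]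
    exact Subgroup.mem_center_iff.1 (Heis.mem_center x) g.left
  have hzmul : ∀ (x : ZMod p) (g : Heis a ⋊[A] H), ψ (inl ⟨0, x⟩ * g) = e x * ψ g := by
    intro x g
    have h1 := CfsgLib.Blocks.irr_mul_mem_center (⟨ψ, hψ⟩ : IrrCharacter _) (hcenter x) g
    simp only at h1
    rw [hψ1, hψk, hφc] at h1
    refine mul_right_cancel₀ hnC (h1.trans ?_)
    ring
  -- the norm
  have hnorm : ∀ h : H, ψ (SemidirectProduct.inr h) * conj (ψ (SemidirectProduct.inr h)) =
      (Nat.card (fixGrp act h) : ℂ) := by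
    intro h
    obtain ⟨m, ρ, hρ, hρχ⟩ := hψ
    haveI := hρ
    let σ : Representation ℂ (Heis a) (Fin m → ℂ) := ρ.comp inl
    haveI : σ.IsIrreducible := by
      obtain ⟨m', τ, hτ, hτφ⟩ := φ.2
      haveI := hτ
      have : σ.character = τ.character := by
        rw [hτφ]; funext k
        rw [← hψk, ← hρχ]; rfl
      obtain ⟨f⟩ := nonempty_equiv_of_character_eq σ τ this
      exact isIrreducible_of_equiv f.symm
    set x : Heis a ⋊[A] H := SemidirectProduct.inr h
    set S : Module.End ℂ (Fin m → ℂ) := ∑ k : Heis a, σ k * ρ x * σ k⁻¹ with hS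
    obtain ⟨c, hc⟩ := exists_smul_of_commute σ S (fun y => by
      rw [← Module.End.mul_eq_comp, ← Module.End.mul_eq_comp, hS, Finset.sum_mul, Finset.mul_sum]
      refine Finset.sum_equiv (Equiv.mulLeft y⁻¹) (fun _ => by simp) fun k _ => ?_
      simp only [Equiv.coe_mulLeft, mul_inv_rev, inv_inv, map_mul, ← mul_assoc]
      rw [← map_mul σ y y⁻¹, mul_inv_cancel, map_one, one_mul])
    have hm : (m : ℂ) = n := by
      rw [← hψ1, ← hρχ, ρ.char_one, Module.finrank_fin_fun]
    have hχx : ∀ g, LinearMap.trace ℂ (Fin m → ℂ) (ρ g) = ψ g := fun g => by rw [← hρχ]; rfl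
    have h1 : c * n = (Nat.card (Heis a) : ℂ) * ψ x := by
      have := congrArg (LinearMap.trace ℂ (Fin m → ℂ)) hc
      rw [map_smul, LinearMap.trace_id, Module.finrank_fin_fun, hm, smul_eq_mul, hS, map_sum,
        Finset.sum_congr rfl (g := fun _ => ψ x) (fun k _ => by
          rw [LinearMap.trace_mul_comm, ← mul_assoc, ← map_mul, inv_mul_cancel, map_one, one_mul, hχx]),
        Finset.sum_const, Finset.card_univ, nsmul_eq_mul, ← Nat.card_eq_fintype_card] at this
      exact this.symm
    have h2 : c * conj (ψ x) = ∑ k : Heis a, (φ : Heis a → ℂ) (k * A h k⁻¹) := by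
      have := congrArg (fun T => LinearMap.trace ℂ (Fin m → ℂ) (T * ρ x⁻¹)) hc
      simp only [hS, Finset.sum_mul, map_sum] at this
      rw [smul_mul_assoc, map_smul, smul_eq_mul,
        show (LinearMap.id : Module.End ℂ (Fin m → ℂ)) = 1 from rfl, one_mul, hχx,
        isCharacter_inv ⟨m, ρ, hρχ⟩] at this
      rw [← this]
      refine Finset.sum_congr rfl fun k _ => ?_
      rw [show σ k = ρ (inl k) from rfl, show σ k⁻¹ = ρ (inl k⁻¹) from rfl, ← map_mul, ← map_mul,
        ← map_mul, hχx, ← hψk, map_mul, SemidirectProduct.inl_aut, map_inv]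
      congr 1
      simp only [x, inl, map_inv]
      group
    have h3 : ∑ k : Heis a, (φ : Heis a → ℂ) (k * A h k⁻¹) =
        (Nat.card (fixGrp act h) : ℂ) * p * n := by
      rw [Fintype.sum_equiv Heis.equiv (fun k => (φ : Heis a → ℂ) (k * A h k⁻¹)) (fun q => (φ : Heis a → ℂ) ((⟨q.1, q.2⟩ : Heis a) * A h ⟨q.1, q.2⟩⁻¹))
        (fun k => rfl), Fintype.sum_prod_type,
        Finset.sum_congr rfl (g := fun u => if act h u = u then (p : ℂ) * n else 0)]
      · rw [← Finset.sum_filter, Finset.sum_const, nsmul_eq_mul,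
          Nat.card_eq_fintype_card (α := fixGrp act h), Fintype.card_subtype]
        simp [mul_assoc]
      · intro u _
        have hval : ∀ z : ZMod p, ((⟨u, z⟩ : Heis a) * A h ⟨u, z⟩⁻¹) =
            ⟨u - act h u, -a u (act h u)⟩ := fun z => by
          ext
          · show u + act h (-u) = _
            rw [map_neg, sub_eq_add_neg]
          · show z + (-z + a u u) + a u (act h (-u)) = _
            rw [haz, map_neg, map_neg]; ring
        simp only [hval, Finset.sum_const, Finset.card_univ, ZMod.card, nsmul_eq_mul]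
        split_ifs with hu
        · rw [hu, sub_self, haz, neg_zero, hφc, AddChar.map_zero_eq_one, mul_one]
        · rw [hφ0 _ (sub_ne_zero.2 (Ne.symm hu)), mul_zero]
    rw [h3] at h2
    have hU' : (Nat.card U : ℂ) = (n : ℂ) * n := by rw [← hn]; push_cast; ring
    rw [Heis.card, Nat.cast_mul, hU'] at h1
    have hc1 : c = n * p * ψ x := mul_right_cancel₀ hnC (by rw [h1]; ring)
    rw [hc1] at h2
    have hp0 : (p : ℂ) * n ≠ 0 := mul_ne_zero (Nat.cast_ne_zero.2 hp.out.ne_zero) hnC
    refine mul_left_cancel₀ hp0 ?_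
    linear_combination h2
  -- divisibility by the degree on the fixed points
  have hdvd : ∀ h : H, ∃ r : ℕ, r * r = Nat.card (fixGrp act h) ∧
      ∃ μ : ℂ, IsIntegral ℤ μ ∧ ψ (SemidirectProduct.inr h) = r * μ := by
    intro h
    set C := fixGrp act h with hC
    let aC : C →+ C →+ ZMod p :=
      AddMonoidHom.mk' (fun c => (a (c : U)).comp C.subtype) (fun c c' => by ext d; simp)
    have haC : ∀ c d : C, aC c d = a c d := fun c d => rfl
    obtain ⟨φ', r, hr, hφ'c, hφ'0⟩ := exists_heis_char hp2 aC (fun c d => halt c d) (fun c hc => by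
      refine Subtype.ext (hnd c fun w => ?_)
      set S := ∑ i ∈ Finset.range (orderOf h), act (h ^ i) w with hS
      have hSC : act h S = S := by
        rw [hS, map_sum]
        simp only [act_act, ← pow_succ']
        have h1 := (Finset.sum_range_succ' (fun i => act (h ^ i) w) (orderOf h)).symm.trans
          (Finset.sum_range_succ (fun i => act (h ^ i) w) (orderOf h))
        rw [pow_orderOf_eq_one, pow_zero] at h1
        exact add_right_cancel h1
      have hfix : ∀ i : ℕ, act (h ^ i) (c : U) = c := by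
        intro i
        induction i with
        | zero => rw [pow_zero, map_one]; rfl
        | succ i ih => rw [pow_succ, ← act_act, c.2, ih]
      have h2 : a (c : U) S = (orderOf h : ℕ) * a (c : U) w := by
        rw [hS, map_sum, Finset.sum_congr rfl (g := fun _ => a (c : U) w), Finset.sum_const,
          Finset.card_range, nsmul_eq_mul]
        intro i _
        conv_lhs => rw [← hfix i, hinv]
      rw [← haC c ⟨S, hSC⟩, hc ⟨S, hSC⟩] at h2
      rcases mul_eq_zero.1 h2.symm with h3 | h3
      · rw [ZMod.natCast_eq_zero_iff] at h3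
        exact absurd (h3.trans (orderOf_dvd_natCard h)) hH
      · exact h3)
    refine ⟨r, hr, ?_⟩
    set x : Heis a ⋊[A] H := SemidirectProduct.inr h
    let ι : Heis aC →* Heis a :=
      MonoidHom.mk' (fun k => ⟨(k.vec : U), k.cen⟩) (fun k l => Heis.ext rfl rfl)
    have hfixk : ∀ k : Heis aC, A h (ι k) = ι k := fun k => Heis.ext k.vec.2 rfl
    have hcx : ∀ (k : Heis aC) (y : Subgroup.zpowers x), Commute (inl (ι k)) (y : Heis a ⋊[A] H) := by
      intro k y
      obtain ⟨i, hi⟩ := Subgroup.mem_zpowers_iff.1 y.2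
      rw [← hi]
      refine Commute.zpow_right ?_ i
      have := SemidirectProduct.inl_aut (φ := A) h (ι k)
      rw [hfixk] at this
      rw [map_inv] at this
      exact (mul_inv_eq_iff_eq_mul.1 this.symm).symm
    let f : Heis aC × Subgroup.zpowers x →* Heis a ⋊[A] H :=
      (inl.comp ι).noncommCoprod (Subgroup.zpowers x).subtype fun k y => hcx k y
    have hoff : ∀ (k : Heis aC) (y : Subgroup.zpowers x), k.vec ≠ 0 → ψ (f (k, y)) = 0 := by
      intro k y hk
      obtain ⟨c', hc'⟩ : ∃ c' : C, aC c' k.vec ≠ 0 := by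
        obtain ⟨w, hw⟩ : ∃ w, aC k.vec w ≠ 0 := by
          by_contra hall
          push Not at hall
          have h0 : (φ' : Heis aC → ℂ) k = 0 := hφ'0 k hk
          have hz : k * k = k * k := rfl
          have key : ∀ w : C, (⟨w, 0⟩ : Heis aC) * k = k * ⟨w, 0⟩ := fun w => by
            ext
            · simp [add_comm]
            · simp only [Heis.mul_cen]
              have : aC w k.vec = 0 := by rw [haC, halt, ← haC, hall, neg_zero]
              rw [this, hall]; ring
          have hcen : k ∈ Subgroup.center (Heis aC) := Subgroup.mem_center_iff.2 fun g => by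
            have hg : g = ⟨g.vec, 0⟩ * ⟨0, g.cen⟩ := by ext <;> simp
            rw [hg, mul_assoc, ← Subgroup.mem_center_iff.1 (Heis.mem_center g.cen) k, ← mul_assoc, key,
              mul_assoc]
          obtain ⟨d, hd0, hd⟩ := exists_degree_of_isIrr φ'.2
          have h1 := CfsgLib.Blocks.irr_mul_mem_center φ' hcen k⁻¹
          rw [mul_inv_cancel, h0, zero_mul, mul_eq_zero, or_self] at h1
          exact apply_one_ne_zero_of_isIrr φ'.2 h1
        exact ⟨w, fun h0 => hw (by rw [haC, halt, ← haC, h0, neg_zero])⟩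
      have e0 : ι ⟨c', 0⟩ * ι k * (ι ⟨c', 0⟩)⁻¹ = (⟨0, 2 * aC c' k.vec⟩ : Heis a) * ι k := by
        ext
        · simp [ι]
        · simp only [ι, MonoidHom.mk'_apply, Heis.mul_cen, Heis.inv_cen, Heis.mul_vec, Heis.inv_vec,
            map_add, map_neg, map_zero, AddMonoidHom.add_apply, AddMonoidHom.zero_apply, haz, haC]
          rw [halt (k.vec : U) c']
          ring
      have hk' : (inl (ι ⟨c', 0⟩)) * (inl (ι k) * y) * (inl (ι ⟨c', 0⟩))⁻¹ =
          inl ⟨0, 2 * aC c' k.vec⟩ * (inl (ι k) * y) := by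
        calc _ = inl (ι ⟨c', 0⟩) * inl (ι k) * ((y : Heis a ⋊[A] H) * (inl (ι ⟨c', 0⟩))⁻¹) := by
              simp only [mul_assoc]
          _ = inl (ι ⟨c', 0⟩ * ι k * (ι ⟨c', 0⟩)⁻¹) * y := by
              rw [← ((hcx ⟨c', 0⟩ y).inv_left).eq, map_mul, map_mul, map_inv]; simp only [mul_assoc]
          _ = _ := by rw [e0, map_mul, mul_assoc]
      have h1 := hzmul (2 * aC c' k.vec) (inl (ι k) * y)
      rw [← hk', IsIrrCharacter.isClassFunction hψ] at h1
      have h2 : e (2 * aC c' k.vec) ≠ 1 := fun h =>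
        two_mul_ne_zero_of_odd hp2 hc' (ZMod.injective_stdAddChar (h.trans (AddChar.map_zero_eq_one _).symm))
      show ψ (inl (ι k) * y) = 0
      by_contra hne
      exact h2 (mul_right_cancel₀ hne (by rw [← h1, one_mul]))
    haveI := Fintype.ofFinite (IrrCharacter (Subgroup.zpowers x))
    have hres : IsCharacter (Subgroup.zpowers x) (fun y => ψ y) :=
      CfsgLib.Coherence.isCharacter_comp (IsIrrCharacter.isCharacter hψ) (Subgroup.zpowers x).subtype
    have hr0 : r ≠ 0 := fun h0 => by
      rw [h0, zero_mul] at hr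
      exact Nat.card_pos.ne hr
    have hcoef : ∀ η : IrrCharacter (Subgroup.zpowers x), ∃ k : ℕ,
        classInner (fun y : Subgroup.zpowers x => ψ y) (η : Subgroup.zpowers x → ℂ) = (r : ℂ) * k := by
      intro η
      have h1 : IsCharacter (Heis aC × Subgroup.zpowers x) (fun q => ψ (f q)) :=
        CfsgLib.Coherence.isCharacter_comp (IsIrrCharacter.isCharacter hψ) f
      have h2 : IsCharacter (Heis aC × Subgroup.zpowers x)
          (fun q => (φ' : Heis aC → ℂ) q.1 * (η : Subgroup.zpowers x → ℂ) q.2) :=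
        isCharacter_mul (CfsgLib.Coherence.isCharacter_comp (IsIrrCharacter.isCharacter φ'.2) (MonoidHom.fst (Heis aC) (Subgroup.zpowers x)))
          (CfsgLib.Coherence.isCharacter_comp (IsIrrCharacter.isCharacter η.2) (MonoidHom.snd (Heis aC) (Subgroup.zpowers x)))
      obtain ⟨m1, ρ1, hρ1⟩ := h1
      obtain ⟨m2, ρ2, hρ2⟩ := h2
      obtain ⟨kk, hk⟩ : ∃ kk : ℕ, classInner ρ1.character ρ2.character = kk :=
        ⟨_, classInner_character_eq_finrank ρ2 ρ1⟩
      rw [hρ1, hρ2] at hk
      refine ⟨kk, ?_⟩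
      rw [← hk, classInner, classInner, Fintype.sum_prod_type,
        Fintype.sum_equiv Heis.equiv (fun k => ∑ y : Subgroup.zpowers x, ψ (f (k, y)) *
          conj ((φ' : Heis aC → ℂ) k * (η : Subgroup.zpowers x → ℂ) y)) (fun q => ∑ y : Subgroup.zpowers x, ψ (f (⟨q.1, q.2⟩, y)) *
          conj ((φ' : Heis aC → ℂ) ⟨q.1, q.2⟩ * (η : Subgroup.zpowers x → ℂ) y)) (fun k => rfl),
        Fintype.sum_prod_type, Finset.sum_eq_single (0 : C)]
      · rw [Finset.sum_congr rfl (g := fun _ : ZMod p =>
          (r : ℂ) * ∑ y : Subgroup.zpowers x, ψ y * conj ((η : Subgroup.zpowers x → ℂ) y)),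
          Finset.sum_const, Finset.card_univ, ZMod.card, nsmul_eq_mul, Nat.card_prod, Heis.card, ← hr]
        · push_cast
          have hr0' : (r : ℂ) ≠ 0 := Nat.cast_ne_zero.2 hr0
          have hp0 : (p : ℂ) ≠ 0 := Nat.cast_ne_zero.2 hp.out.ne_zero
          field_simp
        · intro z _
          rw [Finset.mul_sum]
          refine Finset.sum_congr rfl fun y _ => ?_
          show ψ (inl (ι ⟨0, z⟩) * y) * _ = _
          rw [show ι (⟨0, z⟩ : Heis aC) = ⟨0, z⟩ from rfl, hzmul, hφ'c, map_mul, map_mul,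
            Complex.conj_natCast, ← AddChar.map_neg_eq_conj]
          have : e z * e (-z) = 1 := by rw [← AddChar.map_add_eq_mul, add_neg_cancel, AddChar.map_zero_eq_one]
          linear_combination (r : ℂ) * ψ y * conj ((η : Subgroup.zpowers x → ℂ) y) * this
      · intro c _ hc
        refine Finset.sum_eq_zero fun z _ => Finset.sum_eq_zero fun y _ => ?_
        rw [hoff ⟨c, z⟩ y hc, zero_mul]
      · simp
    choose k hk using hcoef
    have hdec := congrFun (eq_sum_classInner (IsCharacter.isClassFunction hres))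
      (⟨x, Subgroup.mem_zpowers x⟩ : Subgroup.zpowers x)
    refine ⟨∑ η, (k η : ℂ) * (η : Subgroup.zpowers x → ℂ) ⟨x, Subgroup.mem_zpowers x⟩,
      IsIntegral.sum _ fun η _ => (isIntegral_algebraMap (R := ℤ) (x := (k η : ℤ))).mul
        (IsCharacter.isIntegral (IsIrrCharacter.isCharacter η.2) _), ?_⟩
    rw [hdec, Finset.sum_apply, Finset.mul_sum]
    exact Finset.sum_congr rfl fun η _ => by
      rw [Pi.smul_apply, smul_eq_mul, hk, mul_assoc]
  -- the class function
  choose r hr μ hμ hψμ using hdvd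
  set θ : H → ℂ := fun h => (n : ℂ) * ψ (SemidirectProduct.inr h) / Nat.card (fixGrp act h) with hθ
  have hC0 : ∀ h, (Nat.card (fixGrp act h) : ℂ) ≠ 0 := fun h => Nat.cast_ne_zero.2 Nat.card_pos.ne'
  have hrn : ∀ h, r h ∣ n := by
    intro h
    refine (Nat.pow_dvd_pow_iff (n := 2) two_ne_zero).1 ?_
    rw [pow_two, pow_two, hr, hn]
    exact AddSubgroup.card_addSubgroup_dvd_card _
  have hθμ : ∀ h, θ h = ((n / r h : ℕ) : ℂ) * μ h := by
    intro h
    have hr0 : (r h : ℂ) ≠ 0 := fun h0 => hC0 h (by rw [← hr, Nat.cast_mul, h0, zero_mul])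
    simp only [hθ]
    rw [hψμ, ← hr, Nat.cast_div (hrn h) hr0, Nat.cast_mul]
    field_simp
  have hint : ∀ h, IsIntegral ℤ (θ h) := fun h => by
    rw [hθμ]; exact (isIntegral_algebraMap (R := ℤ) (x := ((n / r h : ℕ) : ℤ))).mul (hμ h)
  have hπ : IntCoeff ((n : ℂ) • fun h : H => ψ (SemidirectProduct.inr h)) :=
    (IntCoeff.of_isCharacter (CfsgLib.Coherence.isCharacter_comp (IsIrrCharacter.isCharacter hψ)
      (SemidirectProduct.inr : H →* Heis a ⋊[A] H))).smul (isIntegral_algebraMap (R := ℤ) (x := (n : ℤ)))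
  have e1 : (fun h => (Nat.card (fixGrp act h) : ℂ)) * θ =
      (n : ℂ) • fun h : H => ψ (SemidirectProduct.inr h) := funext fun h => by
    simp only [Pi.mul_apply, Pi.smul_apply, smul_eq_mul, hθ]
    rw [mul_div_cancel₀ _ (hC0 h)]
  refine ⟨θ, ?_, hint, ?_, fun h => ?_, fun h hh M hM hp' => ?_, fun N _ _ hN h => ?_⟩
  · refine intCoeff_of_mul hH (intCoeff_fix act) (fun h => ?_) (fun u w => ?_) hint (e1 ▸ hπ)
    · obtain ⟨k, hk⟩ := isPGroup_card hU (fixGrp act h)
      exact ⟨k, by rw [hk, Nat.cast_pow]⟩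
    · have e2 := (intCoeff_fix act).1 u w
      simp only at e2
      simp only [hθ, e2]
      congr 2
      have := IsIrrCharacter.isClassFunction hψ (SemidirectProduct.inr u : Heis a ⋊[A] H) (SemidirectProduct.inr w)
      rw [← map_mul, ← map_inv, ← map_mul] at this
      exact this
  · have htop : fixGrp act 1 = ⊤ := by ext u; simp
    simp only [hθ, map_one, hψ1, htop, AddSubgroup.card_top, ← hn, Nat.cast_mul]
    field_simp
  · have h1 := hnorm h
    rw [Complex.mul_conj'] at h1
    have h1' : ‖ψ (SemidirectProduct.inr h)‖ ^ 2 = (Nat.card (fixGrp act h) : ℝ) := by exact_mod_cast h1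
    have hc : (Nat.card (fixGrp act h) : ℝ) ≠ 0 := by exact_mod_cast Nat.card_pos.ne'
    simp only [hθ, norm_div, norm_mul, Complex.norm_natCast, div_pow, mul_pow, h1', ← hn, Nat.cast_mul]
    field_simp
  · obtain ⟨u, hu⟩ := hh
    have hlt : r h * r h < n * n := by
      rw [hr, hn, Nat.card_eq_fintype_card, Nat.card_eq_fintype_card (α := U)]
      exact Fintype.card_subtype_lt hu
    have hne : n / r h ≠ 1 := fun h1 => by
      have := Nat.eq_mul_of_div_eq_right (hrn h) h1
      rw [mul_one] at this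
      rw [this] at hlt
      exact lt_irrefl _ hlt
    have hpd : p ∣ n / r h := by
      have hdd : n / r h ∣ p ^ k0 := by
        refine (Nat.div_dvd_of_dvd (hrn h)).trans ?_
        rw [← hk0, ← hn]
        exact dvd_mul_right n n
      obtain ⟨j, -, hj⟩ := (Nat.dvd_prime_pow hp.out).1 hdd
      rcases Nat.eq_zero_or_pos j with rfl | hj0
      · exact absurd (by simpa using hj) hne
      · rw [hj]; exact dvd_pow_self p hj0.ne'
    obtain ⟨b, hb⟩ := hpd
    refine ⟨(p : AlgInt) * ((b : AlgInt) * ⟨μ h, hμ h⟩), M.mul_mem_right _ hp', ?_⟩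
    rw [hθμ, hb]
    push_cast
    ring
  · refine div_mem (mul_mem (natCast_mem _ _) (mem_cycField (IsIrrCharacter.isCharacter hψ) ?_)) (natCast_mem _ _)
    rw [← map_pow, hN h, map_one]

end CfsgLib.Jordan
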