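import Cfsg.Agent.Lib.CharTheory.Basic
import Cfsg.Agent.Lib.CharTheory.Decomp
import Cfsg.Agent.Lib.CharTheory.Orthogonality
import Cfsg.Agent.Lib.CharTheory.Inflation
import Mathlib.LinearAlgebra.Eigenspace.Triangularizable
import Mathlib.LinearAlgebra.Eigenspace.Matrix
import Mathlib.LinearAlgebra.Matrix.Charpoly.Eigs
import Mathlib.Algebra.DirectSum.LinearMap

/-!
Class functions whose coefficients in the irreducible characters are algebraic integers.
-/

set_option autoImplicit false
set_option linter.style.haveILetI false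
set_option linter.unusedSectionVars false

open scoped ComplexConjugate
open Cfsg CfsgLib.CharTheory

namespace CfsgLib.Jordan

universe u

variable {H : Type u} [Group H] [Fintype H]

/-- A class function all of whose coefficients are algebraic integers. -/
def IntCoeff (φ : H → ℂ) : Prop :=
  IsClassFunction H φ ∧ ∀ η : IrrCharacter H, IsIntegral ℤ (classInner φ (η : H → ℂ))

theorem IntCoeff.of_isCharacter {χ : H → ℂ} (hχ : IsCharacter H χ) : IntCoeff χ := by
  refine ⟨IsCharacter.isClassFunction hχ, fun η => ?_⟩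
  obtain ⟨k, hk⟩ := IsCharacter.exists_classInner_eq_nat hχ η
  rw [hk]
  exact isIntegral_algebraMap (R := ℤ) (x := (k : ℤ))

theorem IntCoeff.sum {ι : Type*} (s : Finset ι) {φ : ι → H → ℂ} (a : ι → ℂ)
    (ha : ∀ i ∈ s, IsIntegral ℤ (a i)) (hφ : ∀ i ∈ s, IntCoeff (φ i)) :
    IntCoeff (∑ i ∈ s, a i • φ i) := by
  refine ⟨fun g x => ?_, fun η => ?_⟩
  · simp only [Finset.sum_apply, Pi.smul_apply]
    exact Finset.sum_congr rfl fun i hi => by rw [(hφ i hi).1 g x]
  · rw [classInner_sum_left]
    refine IsIntegral.sum _ fun i hi => ?_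
    rw [classInner_smul_left]
    exact (ha i hi).mul ((hφ i hi).2 η)

theorem IntCoeff.smul {φ : H → ℂ} (hφ : IntCoeff φ) {a : ℂ} (ha : IsIntegral ℤ a) :
    IntCoeff (a • φ) := by
  simpa using IntCoeff.sum ({()} : Finset Unit) (φ := fun _ => φ) (fun _ => a)
    (fun _ _ => ha) fun _ _ => hφ

theorem IntCoeff.mul {φ ψ : H → ℂ} (hφ : IntCoeff φ) (hψ : IntCoeff ψ) : IntCoeff (φ * ψ) := by
  classical
  haveI : Finite H := inferInstance
  haveI := Fintype.ofFinite (IrrCharacter H)
  have h : φ * ψ = ∑ q : IrrCharacter H × IrrCharacter H,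
      (classInner φ (q.1 : H → ℂ) * classInner ψ (q.2 : H → ℂ)) • ((q.1 : H → ℂ) * (q.2 : H → ℂ)) := by
    conv_lhs => rw [eq_sum_classInner hφ.1, eq_sum_classInner hψ.1]
    rw [Fintype.sum_prod_type, Finset.sum_mul_sum]
    exact Finset.sum_congr rfl fun i _ => Finset.sum_congr rfl fun j _ => by
      ext x; simp only [Pi.mul_apply, Pi.smul_apply, smul_eq_mul]; ring
  rw [h]
  exact IntCoeff.sum _ _ (fun q _ => (hφ.2 q.1).mul (hψ.2 q.2)) fun q _ =>
    IntCoeff.of_isCharacter (isCharacter_mul (IsIrrCharacter.isCharacter q.1.2)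
      (IsIrrCharacter.isCharacter q.2.2))

/-- The trace of a representation times a commuting operator with integral eigenvalues. -/
theorem intCoeff_trace {V : Type*} [AddCommGroup V] [Module ℂ V] [FiniteDimensional ℂ V]
    (ρ : Representation ℂ H V) (A : Module.End ℂ V) (hA : ∀ g, Commute A (ρ g))
    (heig : ∀ μ : ℂ, A.HasEigenvalue μ → IsIntegral ℤ μ) :
    IntCoeff (fun g => LinearMap.trace ℂ V (A * ρ g)) := by
  classical
  have hint : DirectSum.IsInternal A.maxGenEigenspace :=
    DirectSum.isInternal_submodule_of_iSupIndep_of_iSup_eq_top A.independent_maxGenEigenspace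
      (Module.End.iSup_maxGenEigenspace_eq_top A)
  have hfin : {μ | A.maxGenEigenspace μ ≠ ⊥}.Finite :=
    WellFoundedGT.finite_ne_bot_of_iSupIndep A.independent_maxGenEigenspace
  let σ : ∀ μ : ℂ, Representation ℂ H (A.maxGenEigenspace μ) := fun μ =>
    { toFun := fun g => (ρ g).restrict (Module.End.mapsTo_maxGenEigenspace_of_comm (hA g) μ)
      map_one' := by ext x; simp
      map_mul' := fun g g' => LinearMap.ext fun x => Subtype.ext (by
        show ρ (g * g') (x : V) = ρ g (ρ g' x)
        rw [map_mul]; rfl) }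
  have hkey : (fun g => LinearMap.trace ℂ V (A * ρ g)) = ∑ μ ∈ hfin.toFinset, μ • (σ μ).character := by
    funext g
    have hmap : ∀ μ, Set.MapsTo (A * ρ g) (A.maxGenEigenspace μ : Set V) (A.maxGenEigenspace μ) :=
      fun μ x hx => Module.End.mapsTo_maxGenEigenspace_of_comm (Commute.refl A) μ
        (Module.End.mapsTo_maxGenEigenspace_of_comm (hA g) μ hx)
    rw [LinearMap.trace_eq_sum_trace_restrict' hint hfin hmap, Finset.sum_apply]
    refine Finset.sum_congr rfl fun μ _ => ?_
    set N := LinearMap.restrict (A - algebraMap ℂ (Module.End ℂ V) μ)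
      (Module.End.mapsTo_maxGenEigenspace_of_comm (Algebra.mul_sub_algebraMap_commutes A μ) μ) with hN
    have hnil : IsNilpotent N :=
      Module.End.isNilpotent_restrict_maxGenEigenspace_sub_algebraMap A μ
    have hcomm : Commute N (σ μ g) := by
      refine LinearMap.ext fun x => Subtype.ext ?_
      show A (ρ g x) - μ • ρ g x = ρ g (A x - μ • (x : V))
      rw [map_sub, map_smul, ← Module.End.mul_apply, (hA g).eq, Module.End.mul_apply]
    have hsplit : LinearMap.restrict (A * ρ g) (hmap μ) = μ • σ μ g + N * σ μ g := by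
      refine LinearMap.ext fun x => Subtype.ext ?_
      show A (ρ g x) = μ • ρ g x + (A (ρ g x) - μ • ρ g x)
      abel
    rw [hsplit, map_add, map_smul, Pi.smul_apply, smul_eq_mul,
      LinearMap.isNilpotent_trace_of_isNilpotent (hcomm.isNilpotent_mul_right hnil) |>.eq_zero, add_zero]
    rfl
  rw [hkey]
  refine IntCoeff.sum _ _ (fun μ hμ => heig μ ?_) fun μ _ =>
    IntCoeff.of_isCharacter (isCharacter_character _)
  obtain ⟨k, hk⟩ : ∃ k : ℕ, A.genEigenspace μ k ≠ ⊥ := by
    by_contra hcon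
    push Not at hcon
    refine hfin.mem_toFinset.1 hμ ?_
    rw [Module.End.maxGenEigenspace_eq]
    exact hcon _
  exact Module.End.hasEigenvalue_of_hasGenEigenvalue (k := k) hk

/-- Sums of an invariant integral kernel along the action have integral coefficients. -/
theorem intCoeff_kernel {X : Type*} [Fintype X] [DecidableEq X] (a : H →* Equiv.Perm X)
    (γ : X → X → ℂ) (hγ : ∀ x y, IsIntegral ℤ (γ x y))
    (hinv : ∀ h x y, γ (a h x) (a h y) = γ x y) :
    IntCoeff (fun h => ∑ x, γ x (a h x)) := by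
  let ρ : Representation ℂ H (X → ℂ) :=
    { toFun := fun h => LinearMap.funLeft ℂ ℂ (a h⁻¹)
      map_one' := by ext; simp
      map_mul' := fun g g' => by
        refine LinearMap.ext fun f => funext fun x => ?_
        simp [LinearMap.funLeft_apply] }
  let A : Module.End ℂ (X → ℂ) := Matrix.toLin' (Matrix.of γ)
  have hA : ∀ g, Commute A (ρ g) := fun g => by
    refine LinearMap.ext fun f => funext fun x => ?_
    show ∑ y, γ x y * f (a g⁻¹ y) = ∑ y, γ (a g⁻¹ x) y * f y
    exact Fintype.sum_equiv (a g⁻¹) _ _ fun y => by rw [hinv]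
  have heig : ∀ μ : ℂ, A.HasEigenvalue μ → IsIntegral ℤ μ := by
    intro μ hμ
    let M' : Matrix X X (integralClosure ℤ ℂ) := Matrix.of fun x y => ⟨γ x y, hγ x y⟩
    have hmap : M'.map (algebraMap (integralClosure ℤ ℂ) ℂ) = Matrix.of γ := rfl
    have hroot : (Matrix.of γ).charpoly.IsRoot μ := by
      rw [← Matrix.mem_spectrum_iff_isRoot_charpoly, ← Matrix.spectrum_toLin',
        ← Module.End.hasEigenvalue_iff_mem_spectrum]
      exact hμ
    rw [← hmap, Matrix.charpoly_map] at hroot
    have hint : IsIntegral (integralClosure ℤ ℂ) μ :=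
      ⟨M'.charpoly, M'.charpoly_monic, by rw [← Polynomial.eval_map]; exact hroot⟩
    exact isIntegral_trans μ hint
  have h := intCoeff_trace ρ A hA heig
  convert h using 2 with h
  rw [LinearMap.trace_eq_matrix_trace ℂ (Pi.basisFun ℂ X), Matrix.trace]
  refine Finset.sum_congr rfl fun x _ => ?_
  rw [Matrix.diag_apply, LinearMap.toMatrix_apply, Pi.basisFun_repr, Pi.basisFun_apply]
  show γ x (a h x) = ∑ y, γ x y * (Pi.single x (1 : ℂ) : X → ℂ) (a h⁻¹ y)
  rw [Finset.sum_eq_single (a h x)]
  · simp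
  · intro y _ hy
    rw [Pi.single_eq_of_ne, mul_zero]
    intro he
    refine hy ?_
    rw [← he, ← Equiv.Perm.mul_apply, ← map_mul, mul_inv_cancel, map_one, Equiv.Perm.one_apply]
  · simp

/-- Cancellation of a class function of `p`-power values. -/
theorem intCoeff_of_mul {p : ℕ} [hp : Fact p.Prime] (hH : ¬ p ∣ Nat.card H) {π φ : H → ℂ}
    (hπ : IntCoeff π) (hπval : ∀ h, ∃ k : ℕ, π h = (p : ℂ) ^ k) (hcl : IsClassFunction H φ)
    (hφ : ∀ h, IsIntegral ℤ (φ h)) (hprod : IntCoeff (π * φ)) : IntCoeff φ := by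
  classical
  choose k hk using hπval
  have hconst : IntCoeff (fun _ : H => (1 : ℂ)) :=
    IntCoeff.of_isCharacter (IsIrrCharacter.isCharacter isIrrCharacter_one)
  -- `p^N φ` is a combination of powers of `π` times `π φ`
  have hkey : ∀ s : Finset H, ∃ N : ℕ, ∃ Q : H → ℂ, IntCoeff Q ∧
      ∀ h ∈ s, (p : ℂ) ^ N = π h * Q h := by
    suffices H' : ∀ s : Finset ℕ, ∃ N : ℕ, ∃ Q : H → ℂ, IntCoeff Q ∧
        ∀ h, k h ∈ s → (p : ℂ) ^ N = π h * Q h by
      intro s
      obtain ⟨N, Q, hQ, h⟩ := H' (s.image k)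
      exact ⟨N, Q, hQ, fun x hx => h x (Finset.mem_image_of_mem k hx)⟩
    intro s
    induction s using Finset.induction with
    | empty => exact ⟨0, _, hconst, fun h hh => absurd hh (by simp)⟩
    | @insert a s _ ih =>
      obtain ⟨N, Q, hQ, hs⟩ := ih
      refine ⟨N + a, ∑ i : Fin 3, ![(p : ℂ) ^ N, (p : ℂ) ^ a, -1] i •
        (![fun _ => 1, Q, π * Q] i : H → ℂ), IntCoeff.sum _ _ (fun i _ => ?_) (fun i _ => ?_), fun h hh => ?_⟩
      · fin_cases i
        · exact (isIntegral_algebraMap (R := ℤ) (A := ℂ) (x := (p : ℤ))).pow N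
        · exact (isIntegral_algebraMap (R := ℤ) (A := ℂ) (x := (p : ℤ))).pow a
        · exact isIntegral_one.neg
      · fin_cases i
        · exact hconst
        · exact hQ
        · exact hπ.mul hQ
      · simp only [Fin.sum_univ_three, Pi.add_apply, Pi.smul_apply, smul_eq_mul, Matrix.cons_val_zero,
          Matrix.cons_val_one, Matrix.cons_val_two, Matrix.head_cons, Matrix.tail_cons, Pi.mul_apply,
          Matrix.cons_val]
        rw [pow_add]
        rcases Finset.mem_insert.1 hh with he | he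
        · rw [hk h, he]; ring
        · linear_combination ((p : ℂ) ^ a - π h) * hs h he
  obtain ⟨N, Q, hQ, hQs⟩ := hkey Finset.univ
  have hP : IntCoeff (((p : ℂ) ^ N) • φ) := by
    have e : ((p : ℂ) ^ N) • φ = Q * (π * φ) := by
      ext h
      simp only [Pi.smul_apply, Pi.mul_apply, smul_eq_mul, hQs h (Finset.mem_univ h)]
      ring
    rw [e]
    exact hQ.mul hprod
  refine ⟨hcl, fun η => ?_⟩
  have h1 := hP.2 η
  rw [classInner_smul_left] at h1
  have h2 : IsIntegral ℤ ((Nat.card H : ℂ) * classInner φ (η : H → ℂ)) := by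
    rw [classInner, mul_inv_cancel_left₀ (Nat.cast_ne_zero.2 Nat.card_pos.ne')]
    exact IsIntegral.sum _ fun h _ => (hφ h).mul
      ((IsCharacter.isIntegral (IsIrrCharacter.isCharacter η.2) h).map (Complex.conjAe.toAlgHom.restrictScalars ℤ))
  have hcop : Nat.Coprime (p ^ N) (Nat.card H) := ((hp.out.coprime_iff_not_dvd).2 hH).pow_left N
  have hbez : (1 : ℂ) = (p : ℂ) ^ N * (Nat.gcdA (p ^ N) (Nat.card H) : ℂ) +
      (Nat.card H : ℂ) * (Nat.gcdB (p ^ N) (Nat.card H) : ℂ) := by
    have := Nat.gcd_eq_gcd_ab (p ^ N) (Nat.card H)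
    rw [hcop.gcd_eq_one] at this
    have := congrArg (fun z : ℤ => (z : ℂ)) this
    push_cast at this
    exact this
  rw [← one_mul (classInner φ _), hbez, add_mul, mul_right_comm, mul_right_comm (Nat.card H : ℂ)]
  exact ((h1.mul isIntegral_algebraMap)).add (h2.mul isIntegral_algebraMap)

end CfsgLib.Jordan
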