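import Cfsg.Agent.Lib.Jordan.DefectZeroNorm
import Cfsg.Agent.Lib.CharTheory.Basic
import Cfsg.Agent.Lib.CharTheory.Degree

/-!
What a character vanishing on `p`-singular elements contributes on the elements of a prime order
dividing the group order once.
-/

set_option autoImplicit false
set_option linter.style.haveILetI false
set_option linter.unusedSectionVars false

open scoped ComplexConjugate
open Cfsg CfsgLib.CharTheory

namespace CfsgLib.Jordan

variable {G : Type*} [Group G] [Fintype G]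

/-- The degree of an irreducible character as a natural number. -/
theorem apply_one_eq_charDegree (χ : IrrCharacter G) :
    (χ : G → ℂ) 1 = charDegree (χ : G → ℂ) ∧ charDegree (χ : G → ℂ) ∣ Nat.card G := by
  obtain ⟨d, -, hdvd, hd⟩ := IsIrrCharacter.exists_degree_dvd χ.2
  have : charDegree (χ : G → ℂ) = d := by rw [charDegree, hd, Complex.natCast_re, Nat.floor_natCast]
  exact ⟨this ▸ hd, this ▸ hdvd⟩

/-- Disjoint sets of elements off the identity carry at most the norm less the squared degree. -/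
theorem normSq_sum_le (χ : IrrCharacter G) (S : Finset G) (h1 : (1 : G) ∉ S) :
    (∑ x ∈ S, Complex.normSq ((χ : G → ℂ) x)) + (charDegree (χ : G → ℂ) : ℝ) ^ 2 ≤ Nat.card G ∧
    ((∑ x ∈ S, Complex.normSq ((χ : G → ℂ) x)) + (charDegree (χ : G → ℂ) : ℝ) ^ 2 = Nat.card G →
      ∀ x, x ∉ S → x ≠ 1 → (χ : G → ℂ) x = 0) := by
  classical
  have htot : ∑ g : G, Complex.normSq ((χ : G → ℂ) g) = (Nat.card G : ℝ) := by
    have h := classInner_self_of_isIrr χ.2
    rw [classInner, inv_mul_eq_one₀ (by exact_mod_cast Nat.card_pos.ne')] at h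
    have h2 : ((∑ g : G, Complex.normSq ((χ : G → ℂ) g) : ℝ) : ℂ) = ((Nat.card G : ℝ) : ℂ) := by
      push_cast
      rw [h]
      exact Finset.sum_congr rfl fun g _ => (Complex.mul_conj _).symm
    exact_mod_cast h2
  have hone : Complex.normSq ((χ : G → ℂ) 1) = (charDegree (χ : G → ℂ) : ℝ) ^ 2 := by
    rw [(apply_one_eq_charDegree χ).1, ← Complex.ofReal_natCast, Complex.normSq_ofReal, sq]
  have hins : (∑ x ∈ S, Complex.normSq ((χ : G → ℂ) x)) + (charDegree (χ : G → ℂ) : ℝ) ^ 2 =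
      ∑ x ∈ insert 1 S, Complex.normSq ((χ : G → ℂ) x) := by
    rw [Finset.sum_insert h1, hone, add_comm]
  rw [hins, ← htot, ← Finset.sum_sdiff (Finset.subset_univ (insert (1 : G) S))]
  have hnn : 0 ≤ ∑ x ∈ Finset.univ \ insert (1 : G) S, Complex.normSq ((χ : G → ℂ) x) :=
    Finset.sum_nonneg fun x _ => Complex.normSq_nonneg _
  refine ⟨le_add_of_nonneg_left hnn, fun h x hxS hx1 => ?_⟩
  have hz : ∑ x ∈ Finset.univ \ insert (1 : G) S, Complex.normSq ((χ : G → ℂ) x) = 0 := by linarith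
  exact Complex.normSq_eq_zero.1 ((Finset.sum_eq_zero_iff_of_nonneg fun x _ => Complex.normSq_nonneg _).1
    hz x (by simp [hxS, hx1]))

/-- The values on the elements of order `q`. -/
theorem prime_excess {p : ℕ} (hp : p.Prime) (χ : IrrCharacter G)
    (hvan : ∀ x : G, p ∣ orderOf x → (χ : G → ℂ) x = 0) {q : ℕ} (hq : q.Prime) (hqp : ¬ p ∣ q)
    (hqG : q ∣ Nat.card G) (hq2 : ¬ q ^ 2 ∣ Nat.card G) (Q : Subgroup G) (hQ : Nat.card Q = q)
    (E : Subgroup G) (hE : IsPGroup p E) (hQE : ∀ a ∈ Q, ∀ e ∈ E, a * e = e * a) {D : ℕ}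
    (hD : charDegree (χ : G → ℂ) = Nat.card E * D) :
    ∃ T y0 : ℤ,
      (∑ x ∈ Finset.univ.filter (fun x : G => orderOf x = q), Complex.normSq ((χ : G → ℂ) x)) =
        (((Nat.card (Sylow q G) : ℤ) * (Nat.card E : ℤ) ^ 2 * T : ℤ) : ℝ) ∧
      (∑ x ∈ Finset.univ.filter (fun x : G => orderOf x = q), (χ : G → ℂ) x) =
        (((Nat.card (Sylow q G) : ℤ) * (Nat.card E : ℤ) * ((q : ℤ) * y0 - D) : ℤ) : ℂ) ∧
      (((D : ℤ) % q * (q - (D : ℤ) % q) + 2 * q ≤ T) ∨
        (T = (D : ℤ) % q * (q - (D : ℤ) % q) ∧ (y0 = (D : ℤ) / q ∨ y0 = (D : ℤ) / q + 1))) := by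
  classical
  haveI := Fintype.ofFinite Q
  haveI := Fintype.ofFinite (IrrCharacter Q)
  obtain ⟨hd, -⟩ := apply_one_eq_charDegree χ
  obtain ⟨y, hcard, hsum, hnorm, htriv⟩ :=
    exists_mult_of_fullDegree hp χ.2 hvan hd Q hq hqp hQ E hE hQE
  have hDy : ∑ i, y i = (D : ℤ) := by
    have h0 : (Nat.card E : ℤ) ≠ 0 := by exact_mod_cast Nat.card_pos.ne'
    refine mul_left_cancel₀ h0 ?_
    rw [hsum, hD]; push_cast; ring
  refine ⟨(q : ℤ) * ∑ i, y i ^ 2 - (D : ℤ) ^ 2, y (trivIrr Q), ?_, ?_, ?_⟩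
  · rw [sum_orderOf_eq hq hqG hq2 (fun x => Complex.normSq ((χ : G → ℂ) x))
      (fun x c => congrArg Complex.normSq (IsCharacter.isClassFunction (IsIrrCharacter.isCharacter χ.2) x c))
      Q hQ, hnorm, hd, ← Complex.ofReal_natCast, Complex.normSq_ofReal, hD]
    push_cast
    ring
  · rw [sum_orderOf_eq hq hqG hq2 (χ : G → ℂ)
      (fun x c => IsCharacter.isClassFunction (IsIrrCharacter.isCharacter χ.2) x c) Q hQ, htriv, hd, hD]
    push_cast
    ring
  · rcases sq_sum_dichotomy Finset.univ y (q : ℤ) (D : ℤ) (by exact_mod_cast hq.pos)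
      (by rw [Finset.card_univ, hcard]) hDy with h | ⟨h, h'⟩
    · exact Or.inl h
    · exact Or.inr ⟨h, h' _ (Finset.mem_univ _)⟩

end CfsgLib.Jordan
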