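import Cfsg.Agent.Lib.Jordan.SingleBlock
import Cfsg.Agent.Lib.Jordan.PrimeExcess
import Cfsg.Agent.Lib.Jordan.MathieuSylowBounds

/-!
The single-block criterion and the prime-order contributions, for subgroups of `M24`.
-/

set_option autoImplicit false
set_option linter.style.haveILetI false
set_option linter.unusedSectionVars false

open Cfsg CfsgLib.Golay CfsgLib.CharTheory

namespace CfsgLib.Jordan.MathieuCent

open CfsgLib.GolayStructure (spanTbl spanOK)
open CfsgLib.ExtraspecialLarge.M24Classes (iterAt iterAt_spec)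

local notation "PermP" => Equiv.Perm GolayPt

theorem sameBlock_of_good {K : Subgroup PermP} {M : Ideal AlgInt} (hM : IsPModular 2 M)
    (h0 : ∀ χ : IrrCharacter K,
      (charDegree (χ : K → ℂ)).factorization 2 < (Nat.card K).factorization 2)
    (hgood : ∀ x ∈ K, orderOf x = 2 → GoodCentralizer K x) (χ ψ : IrrCharacter K) :
    SameBlock M (χ : K → ℂ) (ψ : K → ℂ) := by
  haveI : Fact (Nat.Prime 2) := ⟨Nat.prime_two⟩
  haveI : M.IsPrime := hM.2.1.isPrime
  refine CfsgLib.Jordan.sameBlock_of_criterion hM h0 (fun x hx => ?_) χ ψ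
  obtain ⟨R, hRK, hRx, hRn, hR2, hRg⟩ := hgood x x.2 (by rw [Subgroup.orderOf_coe]; exact hx)
  have hcomm : ∀ c ∈ Subgroup.centralizer ({x} : Set K), (c : PermP) * x = x * c := fun c hc =>
    (congrArg Subtype.val (Subgroup.mem_centralizer_iff.1 hc x rfl)).symm
  refine ⟨R.subgroupOf K, fun r hr => ?_, fun c hc => ?_, hR2.comap_subtype, fun g hg hodd hgR => ?_⟩
  · refine Subgroup.mem_centralizer_iff.2 ?_
    rintro _ rfl
    exact Subtype.ext (hRx r (Subgroup.mem_subgroupOf.1 hr)).symm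
  · refine Subgroup.mem_normalizer_iff.2 fun r => ⟨fun hr => ?_, fun hr => ?_⟩
    · exact Subgroup.mem_subgroupOf.2 (hRn c c.2 (hcomm c hc) r (Subgroup.mem_subgroupOf.1 hr))
    · refine Subgroup.mem_subgroupOf.2 ?_
      have := hRn (c⁻¹ : K) (c⁻¹ : K).2 (hcomm _ (inv_mem hc)) _ (Subgroup.mem_subgroupOf.1 hr)
      simpa [mul_assoc] using this
  · refine Subtype.ext (hRg g g.2 (hcomm g hg) ?_ fun r hr => ?_)
    · rw [Subgroup.orderOf_coe]
      exact Nat.not_even_iff_odd.1 fun h => hodd (even_iff_two_dvd.1 h)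
    · exact congrArg Subtype.val (hgR ⟨r, hRK hr⟩ (Subgroup.mem_subgroupOf.2 hr))

/-- An element of `M24` with the given table and prime order. -/
theorem exists_elt (t q : ℕ) (hq : q.Prime) (hin : inM24 t = true)
    (hpow : ((List.range 24).all fun i => iterAt t q i == i) = true)
    (hmov : ((List.range 24).all fun i => tblAt t i == i) = false) :
    ∃ g : PermP, IsTbl g t ∧ g ∈ M24 ∧ orderOf g = q := by
  haveI : Fact q.Prime := ⟨hq⟩
  obtain ⟨g, hg⟩ := exists_isTbl (show okTbl t = true by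
    simp only [inM24, Bool.and_eq_true] at hin; exact hin.1)
  simp only [List.all_eq_true, List.all_eq_false, List.mem_range, beq_iff_eq] at hpow hmov
  refine ⟨g, hg, mem_M24_of_isTbl hg hin, orderOf_eq_prime (Equiv.ext fun p => idx_injective ?_) ?_⟩
  · rw [Equiv.Perm.one_apply, ← pt_idx ((g ^ q) p), idx_pt (idx_lt _)]
    rw [iterAt_spec hg p q, hpow _ (idx_lt p)]
  · rintro rfl
    obtain ⟨i, hi, hne⟩ := hmov
    refine hne ?_
    conv_lhs => rw [← idx_pt hi]
    rw [← hg (pt i), Equiv.Perm.one_apply, idx_pt hi]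

/-- A span commuting with a table. -/
theorem spanPerm_comm_elt {six : List (ℕ × ℕ)} (h : spanOK six = true) {g : PermP} {t : ℕ}
    (hg : IsTbl g t)
    (hc : ((spanTbl (six.map Prod.fst)).all fun s =>
      (List.range 24).all fun i => tblAt s (tblAt t i) == tblAt t (tblAt s i)) = true) :
    ∀ r ∈ spanPerm six, r * g = g * r := by
  intro r hr
  obtain ⟨s, hs, hrs⟩ := (spanPerm_props h).1 r hr
  simp only [List.all_eq_true, List.mem_range, beq_iff_eq] at hc
  exact Equiv.ext fun p => idx_injective (by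
    rw [Equiv.Perm.mul_apply, Equiv.Perm.mul_apply, hrs, hg, hg, hrs, hc s hs _ (idx_lt p)])

/-- The contribution of the elements of one prime order. -/
theorem prime_contribution {K : Subgroup PermP} [Fintype K] (χ : IrrCharacter K)
    (hvan : ∀ x : K, 2 ∣ orderOf x → (χ : K → ℂ) x = 0)
    {q : ℕ} (hq : q.Prime) (hodd : ¬ 2 ∣ q) {n : ℕ} (hn : n = Nat.card K) (hqn : q ∣ n)
    (hqn2 : ¬ q ^ 2 ∣ n) {g : PermP} (hgK : g ∈ K) (hord : orderOf g = q) {C A : ℕ} (hC0 : 0 < C)
    (hC : Nat.card ↥(K ⊓ Subgroup.centralizer ({g} : Set PermP)) ∣ C) (hA : A = (q - 1) * C)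
    (ok : ℕ → Bool)
    (hok : ((List.range (A + 1)).all fun N =>
      N == 0 || A % N != 0 || n % N != 0 || (n / N) % q != 1 || ok (n / N)) = true)
    (E : Subgroup PermP) (hEK : E ≤ K) (hE2 : IsPGroup 2 E) (hEg : ∀ r ∈ E, r * g = g * r)
    {e : ℕ} (he : Nat.card E = e) {D : ℕ} (hD : charDegree (χ : K → ℂ) = e * D) :
    ∃ (s : ℕ) (T y0 : ℤ), ok s = true ∧
      (∑ x ∈ Finset.univ.filter (fun x : K => orderOf x = q), Complex.normSq ((χ : K → ℂ) x)) =
        (((s : ℤ) * (e : ℤ) ^ 2 * T : ℤ) : ℝ) ∧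
      (∑ x ∈ Finset.univ.filter (fun x : K => orderOf x = q), (χ : K → ℂ) x) =
        (((s : ℤ) * (e : ℤ) * ((q : ℤ) * y0 - D) : ℤ) : ℂ) ∧
      (((D : ℤ) % q * (q - (D : ℤ) % q) + 2 * q ≤ T) ∨
        (T = (D : ℤ) % q * (q - (D : ℤ) % q) ∧ (y0 = (D : ℤ) / q ∨ y0 = (D : ℤ) / q + 1))) := by
  subst hn
  obtain ⟨hs, Q, hQ, hQg⟩ := card_sylow_ok hq hqn2 hgK hord hC0 hC hA rfl ok hok
  have hEc : Nat.card (E.subgroupOf K) = e :=
    (Nat.card_congr (Subgroup.subgroupOfEquivOfLe hEK).toEquiv).trans he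
  obtain ⟨T, y0, h1, h2, h3⟩ := prime_excess Nat.prime_two χ hvan hq hodd hqn hqn2 Q hQ
    (E.subgroupOf K) hE2.comap_subtype (fun a ha r hr => Subtype.ext (by
      obtain ⟨k, hk⟩ := Subgroup.mem_zpowers_iff.1 (hQg a ha)
      show (a : PermP) * (r : PermP) = (r : PermP) * a
      rw [← hk]
      exact ((show Commute (r : PermP) g from hEg r (Subgroup.mem_subgroupOf.1 hr)).zpow_right k).eq.symm))
    (D := D) (by rw [hEc, hD])
  rw [hEc] at h1 h2
  exact ⟨_, T, y0, hs, h1, h2, h3⟩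

end CfsgLib.Jordan.MathieuCent
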