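import Cfsg.Agent.Lib.Jordan.HeisenbergTheta

/-!
A class function for a faithful self-dual module whose squared absolute value is at most the index
of the fixed points.
-/

set_option autoImplicit false
set_option linter.style.haveILetI false
set_option linter.unusedSectionVars false

open Cfsg

namespace CfsgLib.Jordan

variable {H : Type*} [Group H] [Fintype H] {U : Type*} [AddCommGroup U] {p : ℕ}

/-- The induced action on an invariant subgroup. -/
def subAct (act : H →* AddMonoid.End U) (R : AddSubgroup U) (hR : ∀ h, ∀ r ∈ R, act h r ∈ R) :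
    H →* AddMonoid.End R where
  toFun h := AddMonoidHom.mk' (fun r => ⟨act h r, hR h r r.2⟩) fun a b => Subtype.ext (map_add _ _ _)
  map_one' := AddMonoidHom.ext fun r => Subtype.ext (by
    show act 1 (r : U) = r
    rw [map_one]; rfl)
  map_mul' g h := AddMonoidHom.ext fun r => Subtype.ext (act_act act g h r).symm

/-- The induced action on the quotient by an invariant subgroup. -/
def quotAct (act : H →* AddMonoid.End U) (R : AddSubgroup U) (hR : ∀ h, ∀ r ∈ R, act h r ∈ R) :
    H →* AddMonoid.End (U ⧸ R) where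
  toFun h := QuotientAddGroup.map R R (act h) fun r hr => hR h r hr
  map_one' := AddMonoidHom.ext fun q => by
    induction q using QuotientAddGroup.induction_on with
    | _ u =>
      show ((act 1 u : U) : U ⧸ R) = _
      rw [map_one]; rfl
  map_mul' g h := AddMonoidHom.ext fun q => by
    induction q using QuotientAddGroup.induction_on with
    | _ u =>
      show ((act (g * h) u : U) : U ⧸ R) = ((act g (act h u) : U) : U ⧸ R)
      rw [act_act]

@[simp] theorem quotAct_mk (act : H →* AddMonoid.End U) (R : AddSubgroup U)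
    (hR : ∀ h, ∀ r ∈ R, act h r ∈ R) (h : H) (u : U) :
    quotAct act R hR h (u : U ⧸ R) = ((act h u : U) : U ⧸ R) := rfl

theorem card_fix_le [Finite U] (act : H →* AddMonoid.End U) (R : AddSubgroup U)
    (hR : ∀ h, ∀ r ∈ R, act h r ∈ R) (h : H) :
    Nat.card (fixGrp act h) ≤
      Nat.card (fixGrp (quotAct act R hR) h) * Nat.card (fixGrp (subAct act R hR) h) := by
  let π : fixGrp act h →+ fixGrp (quotAct act R hR) h :=
    AddMonoidHom.mk' (fun c => ⟨((c : U) : U ⧸ R), by
      show quotAct act R hR h ((c : U) : U ⧸ R) = _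
      rw [quotAct_mk, c.2]⟩) fun a b => Subtype.ext rfl
  rw [AddSubgroup.card_eq_card_quotient_mul_card_addSubgroup π.ker,
    Nat.card_congr (QuotientAddGroup.quotientKerEquivRange π).toEquiv]
  refine Nat.mul_le_mul (AddSubgroup.card_le_card_addGroup _) ?_
  refine Nat.card_le_card_of_injective (fun c : π.ker =>
    (⟨⟨((c : fixGrp act h) : U), (QuotientAddGroup.eq_zero_iff _).1 (congrArg Subtype.val c.2)⟩,
      Subtype.ext (c : fixGrp act h).2⟩ : fixGrp (subAct act R hR) h)) ?_
  intro a b hab
  exact Subtype.ext (Subtype.ext (congrArg (fun x : fixGrp (subAct act R hR) h => ((x : R) : U)) hab))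

/-- The radical of a bilinear map. -/
def radical (b : U →+ U →+ ZMod p) : AddSubgroup U := b.ker

theorem mem_radical {b : U →+ U →+ ZMod p} {u : U} : u ∈ radical b ↔ ∀ w, b u w = 0 :=
  ⟨fun h w => by rw [AddMonoidHom.mem_ker.1 h]; rfl, fun h => AddMonoidHom.mem_ker.2 (AddMonoidHom.ext h)⟩

theorem radical_invariant {act : H →* AddMonoid.End U} {b : U →+ U →+ ZMod p}
    (hinv : ∀ h u w, b (act h u) (act h w) = b u w) (h : H) (r : U) (hr : r ∈ radical b) :
    act h r ∈ radical b := by
  rw [mem_radical] at hr ⊢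
  intro w
  rw [← act_act_inv act h w, hinv]
  exact hr _

variable [hp : Fact p.Prime]

/-- A form with a sign gives a good class function on the quotient by its radical. -/
theorem exists_theta_quot [Fintype U] (hH : ¬ p ∣ Nat.card H) (hU : ∀ u : U, p • u = 0)
    (act : H →* AddMonoid.End U) (b : U →+ U →+ ZMod p)
    (hinv : ∀ h u w, b (act h u) (act h w) = b u w)
    (hb : (∀ u w, b u w = b w u) ∨ (∀ u w, b u w = -b w u)) :
    ∃ θ : H → ℂ, GoodTheta p (quotAct act (radical b) (radical_invariant hinv)) θ := by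
  classical
  set R := radical b
  have hright : ∀ u, ∀ r ∈ R, b u r = 0 := by
    intro u r hr
    rcases hb with hb | hb <;> rw [hb, mem_radical.1 hr] <;> simp
  let f : U →+ (U ⧸ R →+ ZMod p) := AddMonoidHom.mk'
    (fun u => QuotientAddGroup.lift R (b u) fun r hr => AddMonoidHom.mem_ker.2 (hright u r hr))
    (fun u u' => AddMonoidHom.ext fun q => by
      induction q using QuotientAddGroup.induction_on with
      | _ w => exact DFunLike.congr_fun (map_add b u u') w)
  let b' : U ⧸ R →+ (U ⧸ R →+ ZMod p) := QuotientAddGroup.lift R f fun r hr => by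
    refine AddMonoidHom.mem_ker.2 (AddMonoidHom.ext fun q => ?_)
    induction q using QuotientAddGroup.induction_on with
    | _ w => exact mem_radical.1 hr w
  have hb' : ∀ u w : U, b' (u : U ⧸ R) (w : U ⧸ R) = b u w := fun u w => rfl
  have hU' : ∀ q : U ⧸ R, p • q = 0 := fun q => by
    induction q using QuotientAddGroup.induction_on with
    | _ u => rw [← QuotientAddGroup.mk_nsmul, hU, QuotientAddGroup.mk_zero]
  have hnd : ∀ q, (∀ r, b' q r = 0) → q = 0 := fun q => by
    induction q using QuotientAddGroup.induction_on with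
    | _ u => exact fun h => (QuotientAddGroup.eq_zero_iff u).2 (mem_radical.2 fun w => hb' u w ▸ h _)
  have hinv' : ∀ h q r, b' (quotAct act R (radical_invariant hinv) h q)
      (quotAct act R (radical_invariant hinv) h r) = b' q r := fun h q r => by
    induction q using QuotientAddGroup.induction_on with
    | _ u =>
      induction r using QuotientAddGroup.induction_on with
      | _ w => simp [hb', hinv]
  have hsign : ∀ q r, (∀ u w, b u w = b w u) → b' q r = b' r q := fun q r hs => by
    induction q using QuotientAddGroup.induction_on with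
    | _ u =>
      induction r using QuotientAddGroup.induction_on with
      | _ w => simp [hb', hs u w]
  rcases hb with hb | hb
  · exact exists_theta_symm hH hU' _ b' (fun q r => hsign q r hb) hnd hinv'
  · by_cases hp2 : p = 2
    · subst hp2
      exact exists_theta_symm hH hU' _ b'
        (fun q r => hsign q r fun u w => by rw [hb u w, ZMod.neg_eq_self_mod_two]) hnd hinv'
    · refine exists_theta_alt hH hp2 hU' _ b' (fun q r => ?_) hnd hinv'
      induction q using QuotientAddGroup.induction_on with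
      | _ u =>
        induction r using QuotientAddGroup.induction_on with
        | _ w => simp [hb', hb u w]

/-- The class function attached to a non-degenerate invariant form. -/
theorem exists_theta [Fintype U] (hH : ¬ p ∣ Nat.card H) (hU : ∀ u : U, p • u = 0)
    (act : H →* AddMonoid.End U) (β : U →+ U →+ ZMod p)
    (hnd : ∀ u, (∀ w, β u w = 0) → u = 0) (hinv : ∀ h u w, β (act h u) (act h w) = β u w) :
    ∃ θ : H → ℂ, IntCoeff θ ∧ (∀ h, IsIntegral ℤ (θ h)) ∧ θ 1 = 1 ∧
      (∀ h, ‖θ h‖ ^ 2 * (Nat.card (fixGrp act h) : ℝ) ≤ Nat.card U) ∧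
      (∀ h, (∃ u, act h u ≠ u) → ∀ M : Ideal AlgInt, M.IsPrime → (p : AlgInt) ∈ M →
        ∃ z ∈ M, (z : ℂ) = θ h) ∧
      (∀ (n : ℕ) [NeZero n], p ∣ n → (∀ h : H, h ^ n = 1) → ∀ h, θ h ∈ cycField n) ∧
      ∀ h, ∃ a b : ℕ, b ≠ 0 ∧ ‖θ h‖ ^ 2 * (b : ℝ) = a := by
  classical
  let s : U →+ U →+ ZMod p := β + β.flip
  have hs : ∀ u w, s u w = β u w + β w u := fun u w => rfl
  have hsinv : ∀ h u w, s (act h u) (act h w) = s u w := fun h u w => by simp [hs, hinv]
  set R := radical s
  let act0 := subAct act R (radical_invariant hsinv)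
  let β0 : R →+ R →+ ZMod p := AddMonoidHom.mk' (fun r => (β (r : U)).comp R.subtype)
    fun a b => by ext d; simp
  have hβ0 : ∀ a b : R, β0 a b = β a b := fun a b => rfl
  have hβ0inv : ∀ h (a b : R), β0 (act0 h a) (act0 h b) = β0 a b := fun h a b => hinv h a b
  have hskew : ∀ a b : R, β0 a b = -β0 b a := fun a b => by
    have := mem_radical.1 a.2 (b : U)
    rw [hs] at this
    exact eq_neg_of_add_eq_zero_left this
  obtain ⟨θ1, i1, z1, o1, n1, m1, f1⟩ := exists_theta_quot hH hU act s hsinv
    (Or.inl fun u w => by rw [hs, hs, add_comm])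
  have hU0 : ∀ r : R, p • r = 0 := fun r => Subtype.ext (hU r)
  obtain ⟨θ2, i2, z2, o2, n2, m2, f2⟩ := exists_theta_quot hH hU0 act0 β0 hβ0inv (Or.inr hskew)
  refine ⟨θ1 * θ2, i1.mul i2, fun h => (z1 h).mul (z2 h), by simp [o1, o2], fun h => ?_,
    fun h hh M hM hp' => ?_, fun n _ hpn hn h => mul_mem (f1 n hpn hn h) (f2 n hpn hn h), fun h => ?_⟩
  · have e1 := card_fix_le act R (radical_invariant hsinv) h
    have e2 := card_fix_le act0 (radical β0) (radical_invariant hβ0inv) h
    have e3 : Nat.card (fixGrp (subAct act0 (radical β0) (radical_invariant hβ0inv)) h) ≤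
        Nat.card (radical β0) := AddSubgroup.card_le_card_addGroup _
    have e4 : (Nat.card (fixGrp act h) : ℝ) ≤
        (Nat.card (fixGrp (quotAct act R (radical_invariant hsinv)) h) : ℝ) *
        ((Nat.card (fixGrp (quotAct act0 (radical β0) (radical_invariant hβ0inv)) h) : ℝ) *
          Nat.card (radical β0)) := by
      exact_mod_cast e1.trans (Nat.mul_le_mul_left _ (e2.trans (Nat.mul_le_mul_left _ e3)))
    calc ‖(θ1 * θ2) h‖ ^ 2 * (Nat.card (fixGrp act h) : ℝ)
        ≤ ‖(θ1 * θ2) h‖ ^ 2 * _ := mul_le_mul_of_nonneg_left e4 (by positivity)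
      _ = (‖θ1 h‖ ^ 2 * (Nat.card (fixGrp (quotAct act R (radical_invariant hsinv)) h) : ℝ)) *
          ((‖θ2 h‖ ^ 2 * (Nat.card (fixGrp (quotAct act0 (radical β0) (radical_invariant hβ0inv)) h) : ℝ)) *
            Nat.card (radical β0)) := by rw [Pi.mul_apply, norm_mul]; ring
      _ = _ := by
          rw [n1, n2, ← Nat.cast_mul, ← Nat.cast_mul,
            ← AddSubgroup.card_eq_card_quotient_mul_card_addSubgroup (radical β0),
            ← AddSubgroup.card_eq_card_quotient_mul_card_addSubgroup R]
  · by_cases h1 : ∃ q, quotAct act R (radical_invariant hsinv) h q ≠ q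
    · obtain ⟨z, hz, e⟩ := m1 h h1 M hM hp'
      refine ⟨z * ⟨θ2 h, z2 h⟩, M.mul_mem_right _ hz, ?_⟩
      push_cast
      rw [e, Pi.mul_apply]
    by_cases h2 : ∃ q, quotAct act0 (radical β0) (radical_invariant hβ0inv) h q ≠ q
    · obtain ⟨z, hz, e⟩ := m2 h h2 M hM hp'
      refine ⟨⟨θ1 h, z1 h⟩ * z, M.mul_mem_left _ hz, ?_⟩
      push_cast
      rw [e, Pi.mul_apply]
    exfalso
    push Not at h1 h2
    obtain ⟨w0, hw0⟩ := hh
    -- the second radical inside `U`
    let R2 : AddSubgroup U := (radical β0).map R.subtype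
    have hR2 : ∀ g, ∀ r ∈ R2, act g r ∈ R2 := by
      rintro g _ ⟨r, hr, rfl⟩
      exact ⟨act0 g r, radical_invariant hβ0inv g r hr, rfl⟩
    have hd : ∀ w, act h w - w ∈ R := fun w => by
      have := h1 (w : U ⧸ R)
      rw [quotAct_mk] at this
      exact (QuotientAddGroup.eq_iff_sub_mem).1 this
    have hd2 : ∀ r : U, r ∈ R → act h r - r ∈ R2 := fun r hr => by
      have := h2 ((⟨r, hr⟩ : R) : R ⧸ radical β0)
      rw [quotAct_mk] at this
      exact ⟨_, (QuotientAddGroup.eq_iff_sub_mem).1 this, rfl⟩
    have step1 : ∀ w, act h w - w ∈ R2 := fun w => by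
      have hU2 : ∀ q : U ⧸ R2, p • q = 0 := fun q => by
        induction q using QuotientAddGroup.induction_on with
        | _ u => rw [← QuotientAddGroup.mk_nsmul, hU, QuotientAddGroup.mk_zero]
      have := fix_of_fix_sub hH hU2 (quotAct act R2 hR2) h (w : U ⧸ R2) (by
        rw [quotAct_mk, ← QuotientAddGroup.mk_sub, quotAct_mk, QuotientAddGroup.eq_iff_sub_mem]
        exact hd2 _ (hd w))
      rw [quotAct_mk] at this
      exact (QuotientAddGroup.eq_iff_sub_mem).1 this
    have step2 : ∀ r ∈ R2, act h r = r := by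
      intro r hr
      rw [← sub_eq_zero]
      refine hnd _ fun w => ?_
      obtain ⟨r', hr', rfl⟩ := hr
      have e : β (act h (r' : U)) w = β (r' : U) (act h⁻¹ w) := by
        conv_lhs => rw [← act_act_inv act h w, hinv]
      obtain ⟨d, hd', he⟩ := step1 (act h⁻¹ w)
      rw [act_act_inv] at he
      have he' : act h⁻¹ w = w - (d : U) := by rw [show (d : U) = w - act h⁻¹ w from he]; abel
      simp only [AddSubgroup.coe_subtype, map_sub, AddMonoidHom.sub_apply, e, he']
      have h0 : β (r' : U) (d : U) = 0 := by rw [← hβ0]; exact mem_radical.1 hr' d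
      rw [h0]; ring
    exact hw0 (fix_of_fix_sub hH hU act h w0 (step2 _ (step1 w0)))
  · refine ⟨Nat.card (U ⧸ R) * Nat.card (R ⧸ radical β0),
      Nat.card (fixGrp (quotAct act R (radical_invariant hsinv)) h) *
        Nat.card (fixGrp (quotAct act0 (radical β0) (radical_invariant hβ0inv)) h),
      mul_ne_zero Nat.card_pos.ne' Nat.card_pos.ne', ?_⟩
    rw [Pi.mul_apply, norm_mul, mul_pow, Nat.cast_mul, Nat.cast_mul, mul_mul_mul_comm, n1, n2]

end CfsgLib.Jordan
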