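import Cfsg.Agent.Lib.Blocks.CentralizerBlock
import Cfsg.Agent.Lib.Blocks.Defect
import Cfsg.Agent.Lib.Blocks.Orth
import Cfsg.Agent.Lib.CharTheory.Basic
import Cfsg.Agent.Lib.Cores.Basic

/-!
A group has one `p`-block once it has no character of full defect degree and the centralizer of
every element of order `p` has a normal `p`-subgroup containing its own centralizer.
-/

set_option autoImplicit false
set_option linter.style.haveILetI false
set_option linter.unusedSectionVars false

open Cfsg CfsgLib.CharTheory CfsgLib.Blocks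

namespace CfsgLib.Jordan

variable {G : Type*} [Group G] [Finite G] {p : ℕ} [Fact p.Prime] {M : Ideal AlgInt} [M.IsPrime]

/-- A block is determined by the central character on the support of its idempotent. -/
theorem sameBlock_of_support_congr (χ ψ : IrrCharacter G)
    (h : ∀ g : G, ¬ MemLocalIdeal M (blockCoeff (blockOf M (χ : G → ℂ)) g) →
      MemLocalIdeal M (centralChar (χ : G → ℂ) g - centralChar (ψ : G → ℂ) g)) :
    SameBlock M (χ : G → ℂ) (ψ : G → ℂ) := by
  classical
  haveI := Fintype.ofFinite (ConjClasses G)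
  set B := blockOf M (χ : G → ℂ)
  have hB : IsPBlock M B := isPBlock_blockOf χ
  set e := idemRes M B (memLocalRing_blockCoeff hB)
  have he : omegaRes M χ e = omegaRes M ψ e := by
    show omegaResAux M χ e = omegaResAux M ψ e
    rw [omegaResAux_eq, omegaResAux_eq]
    refine Finset.sum_congr rfl fun c _ => ?_
    by_cases hc : MemLocalIdeal M (blockCoeff B c.out)
    · rw [(coeff_idemRes_eq_zero_iff (memLocalRing_blockCoeff hB) c.out).2 hc, zero_mul, zero_mul]
    · congr 1
      rw [← sub_eq_zero, ← map_sub, red_eq_zero_iff]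
      rw [AddSubgroupClass.coe_sub, coe_omegaLoc_classSumA, coe_omegaLoc_classSumA]
      exact h c.out hc
  by_contra hne
  have hψ : ψ ∉ B := hne
  rw [omegaRes_idemRes_of_mem _ (mem_blockOf_self χ), omegaRes_idemRes_of_notMem _ hψ] at he
  exact one_ne_zero he

/-- A group with a normal `p`-subgroup centralized by no non-trivial `p`-regular element has one
block. -/
theorem sameBlock_of_centralizer_normal (hM : IsPModular p M) (R : Subgroup G) [R.Normal]
    (hR : IsPGroup p R) (hC : ∀ g : G, ¬ p ∣ orderOf g → (∀ r ∈ R, r * g = g * r) → g = 1)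
    (χ ψ : IrrCharacter G) : SameBlock M (χ : G → ℂ) (ψ : G → ℂ) := by
  haveI := Fintype.ofFinite G
  refine sameBlock_of_support_congr χ ψ fun g hg => ?_
  have hreg : ¬ p ∣ orderOf g := fun h => hg (by
    rw [blockCoeff_eq_zero_of_dvd_orderOf hM (isPBlock_blockOf χ) h]
    exact memLocalIdeal_zero)
  by_cases hg1 : g = 1
  · subst hg1
    rw [centralChar_one (apply_one_ne_zero_of_isIrr χ.2), centralChar_one (apply_one_ne_zero_of_isIrr ψ.2),
      sub_self]
    exact memLocalIdeal_zero
  · have hzero : ∀ η : IrrCharacter G, MemLocalIdeal M (centralChar (η : G → ℂ) g) := fun η => by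
      by_contra hne
      refine hg1 (hC g hreg fun r hr => ?_)
      refine Subgroup.mem_centralizer_iff.1 (mem_centralizer_pCore hM hne) r ?_
      exact (le_sSup (s := {N : Subgroup G | N.Normal ∧ IsPGroup p N}) ⟨inferInstance, hR⟩ : R ≤ pCore p G) hr
    exact memLocalIdeal_sub (hzero χ) (hzero ψ)

/-- With one block, a non-zero idempotent of the centre is the identity. -/
theorem eq_one_of_idem (h : ∀ χ ψ : IrrCharacter G, SameBlock M (χ : G → ℂ) (ψ : G → ℂ))
    {f : classAlg (Res M) G} (hf : f * f = f) (hne : f ≠ 0) : f = 1 := by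
  obtain ⟨η, hη⟩ := exists_omegaRes_eq_one hf hne
  by_contra h1
  obtain ⟨η', hη'⟩ := exists_omegaRes_eq_one (f := 1 - f)
    (by rw [mul_sub, mul_one, sub_mul, one_mul, hf, sub_self, sub_zero]) (sub_ne_zero.2 (Ne.symm h1))
  rw [(omegaRes_eq_iff M η' η).2 (h η' η), map_sub, map_one, hη, sub_self] at hη'
  exact zero_ne_one hη'

/-- The criterion for a single block. -/
theorem sameBlock_of_criterion (hM : IsPModular p M)
    (h0 : ∀ χ : IrrCharacter G,
      (charDegree (χ : G → ℂ)).factorization p < (Nat.card G).factorization p)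
    (hcen : ∀ x : G, orderOf x = p → ∃ R : Subgroup G, R ≤ Subgroup.centralizer ({x} : Set G) ∧
      Subgroup.centralizer ({x} : Set G) ≤ Subgroup.normalizer (R : Set G) ∧ IsPGroup p R ∧
      ∀ g ∈ Subgroup.centralizer ({x} : Set G), ¬ p ∣ orderOf g → (∀ r ∈ R, r * g = g * r) → g = 1)
    (χ ψ : IrrCharacter G) : SameBlock M (χ : G → ℂ) (ψ : G → ℂ) := by
  classical
  haveI := charP_res hM
  set B0 := blockOf M ((trivIrr G : IrrCharacter G) : G → ℂ) with hB0def
  have hB0 : IsPBlock M B0 := isPBlock_blockOf _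
  suffices H : ∀ θ : IrrCharacter G, θ ∈ B0 from sameBlock_of_mem hB0 (H χ) (H ψ)
  intro θ
  by_contra hθ
  set B := blockOf M (θ : G → ℂ) with hBdef
  have hB : IsPBlock M B := isPBlock_blockOf θ
  have hdis : Disjoint B B0 := disjoint_of_isPBlock_ne hB hB0 fun h => hθ (h ▸ mem_blockOf_self θ)
  have hmul : idemRes M B (memLocalRing_blockCoeff hB) * idemRes M B0 (memLocalRing_blockCoeff hB0) = 0 := by
    rw [idemRes, idemRes, ← map_mul, ← map_zero (classMap (red M))]
    congr 1
    refine classAlgLoc_ext fun η => ?_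
    rw [map_mul, map_zero]
    by_cases hη : η ∈ B
    · rw [omegaLoc_idemLoc_of_notMem _ (Set.disjoint_left.1 hdis hη), mul_zero]
    · rw [omegaLoc_idemLoc_of_notMem _ hη, zero_mul]
  -- a defect class of `B` has an element of order `p` in its centralizer
  obtain ⟨g, hg⟩ := exists_isDefectClass hM hB
  have hdvd : p ∣ Nat.card (Subgroup.centralizer ({g} : Set G)) := by
    by_contra hnd
    have h1 := factorization_card_eq (p := p) g
    rw [Nat.factorization_eq_zero_of_not_dvd hnd, zero_add] at h1
    have h2 := factorization_index_le_of_centralChar_unit hM (hg.2.2 θ (mem_blockOf_self θ))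
    have h3 := h0 θ
    omega
  obtain ⟨⟨x, hxC⟩, hx⟩ := exists_prime_orderOf_dvd_card' p hdvd
  rw [← Subgroup.orderOf_coe] at hx
  change orderOf x = p at hx
  -- a defect class of the principal block centralizes a conjugate of `x`
  obtain ⟨g0, hg0⟩ := exists_isDefectClass hM hB0
  have hfull : ¬ p ∣ (Subgroup.centralizer ({g0} : Set G)).index := by
    intro h
    have h1 := factorization_index_le_of_centralChar_unit hM
      (hg0.2.2 _ (mem_blockOf_self (M := M) (trivIrr G)))
    have hd : charDegree ((trivIrr G : IrrCharacter G) : G → ℂ) = 1 := by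
      rw [charDegree, trivIrr_apply]
      simp
    rw [hd, Nat.factorization_one, Finsupp.zero_apply] at h1
    have := (Fact.out : p.Prime).factorization_pos_of_dvd Subgroup.index_ne_zero_of_finite h
    omega
  obtain ⟨c, hc⟩ : ∃ c : G, c * g0 * c⁻¹ ∈ Subgroup.centralizer ({x} : Set G) := by
    obtain ⟨S⟩ := (inferInstance : Nonempty (Sylow p (Subgroup.centralizer ({g0} : Set G))))
    have hcard : Nat.card ((S : Subgroup (Subgroup.centralizer ({g0} : Set G))).map
        (Subgroup.centralizer ({g0} : Set G)).subtype) = p ^ (Nat.card G).factorization p := by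
      rw [Subgroup.card_map_of_injective (Subgroup.subtype_injective _), S.card_eq_multiplicity,
        factorization_card_eq (p := p) g0, Nat.factorization_eq_zero_of_not_dvd hfull, add_zero]
    obtain ⟨T, hT⟩ := (IsPGroup.of_card (n := 1) (by rw [Nat.card_zpowers, hx, pow_one]) :
      IsPGroup p (Subgroup.zpowers x)).exists_le_sylow
    obtain ⟨c, hc⟩ := MulAction.exists_smul_eq G (Sylow.ofCard _ hcard) T
    refine ⟨c, ?_⟩
    have hxT : x ∈ ((c • Sylow.ofCard _ hcard : Sylow p G) : Subgroup G) :=
      hc.symm ▸ hT (Subgroup.mem_zpowers x)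
    rw [Sylow.coe_subgroup_smul, Subgroup.mem_pointwise_smul_iff_inv_smul_mem,
      ← map_inv, MulAut.smul_def, MulAut.conj_apply, inv_inv] at hxT
    obtain ⟨s, -, hs⟩ := hxT
    have h1 := Subgroup.mem_centralizer_singleton_iff.1 s.2
    rw [Subgroup.mem_centralizer_singleton_iff]
    change (s : G) = c⁻¹ * x * c at hs
    rw [hs] at h1
    calc c * g0 * c⁻¹ * x = c * (g0 * (c⁻¹ * x * c)) * c⁻¹ := by group
      _ = c * ((c⁻¹ * x * c) * g0) * c⁻¹ := by rw [← h1]
      _ = x * (c * g0 * c⁻¹) := by group
  -- the Brauer map at `x`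
  set P := Subgroup.zpowers x with hPdef
  set H := Subgroup.centralizer ({x} : Set G) with hHdef
  have hP : IsPGroup p P := IsPGroup.of_card (n := 1) (by rw [Nat.card_zpowers, hx, pow_one])
  have hPC : Subgroup.centralizer (P : Set G) = H := by
    ext y
    rw [hHdef, Subgroup.mem_centralizer_singleton_iff, Subgroup.mem_centralizer_iff]
    refine ⟨fun h => (h x (Subgroup.mem_zpowers x)).symm, fun h z hz => ?_⟩
    obtain ⟨i, rfl⟩ := Subgroup.mem_zpowers_iff.1 hz
    exact (show Commute x y from h.symm).zpow_left i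
  have hCH : Subgroup.centralizer (P : Set G) ≤ H := hPC.le
  have hHN : H ≤ Subgroup.normalizer (P : Set G) :=
    hPC.ge.trans (centralizer_le_normalizer_coe P)
  obtain ⟨R, hRle, hRn, hRp, hRC⟩ := hcen x hx
  haveI : (R.subgroupOf H).Normal := Subgroup.normal_subgroupOf_of_le_normalizer hRn
  have hone : ∀ η η' : IrrCharacter H, SameBlock M (η : H → ℂ) (η' : H → ℂ) := by
    refine sameBlock_of_centralizer_normal hM (R.subgroupOf H)
      (hRp.of_equiv (Subgroup.subgroupOfEquivOfLe hRle).symm) fun y hy hr => ?_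
    refine Subtype.ext (hRC y y.2 (by rwa [Subgroup.orderOf_coe]) fun r hr' => ?_)
    exact congrArg Subtype.val (hr ⟨r, hRle hr'⟩ hr')
  have hgP : g ∈ Subgroup.centralizer (P : Set G) := by
    rw [hPC, hHdef, Subgroup.mem_centralizer_singleton_iff]
    exact (Subgroup.mem_centralizer_singleton_iff.1 hxC).symm
  have hg0P : c * g0 * c⁻¹ ∈ Subgroup.centralizer (P : Set G) := hPC.ge hc
  have hne1 := truncHom_idemRes_ne_zero hB hP hCH hHN hg.2.1 hgP
  have hne2 := truncHom_idemRes_ne_zero hB0 hP hCH hHN
    (show ¬ MemLocalIdeal M (blockCoeff B0 (c * g0 * c⁻¹)) by rw [blockCoeff_conj]; exact hg0.2.1) hg0P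
  have e1 := eq_one_of_idem hone (by rw [← map_mul, idemRes_mul_self]) hne1
  have e2 := eq_one_of_idem hone (by rw [← map_mul, idemRes_mul_self]) hne2
  have := congrArg (truncHom hP hCH hHN) hmul
  rw [map_mul, map_zero, e1, e2, mul_one] at this
  exact hne1 (e1.trans this)

end CfsgLib.Jordan
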